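import Cfsg.Agent.Lib.Helper21.AvgChar
import Cfsg.Agent.Lib.Helper81.LocalRing

/-!
# Rung P: local integrality of `f(x)/|C_G(x)|` for `f` vanishing on `p`-singular elements
-/

set_option autoImplicit false

namespace Cfsg.Agent.Lib.Helper29

open Cfsg Cfsg.Agent.Lib.Helper20 Cfsg.Agent.Lib.Helper21 Cfsg.Agent.Lib.Helper81

theorem perfP {G : Type*} [Group G] [Fintype G] {p : ℕ} {M : Ideal AlgInt} (hM : IsPModular p M)
    {ι : Type*} (s : Finset ι) (c : ι → ℂ) (X : ι → IrrCharacter G)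
    (hc : ∀ i ∈ s, MemLocalRing M (c i))
    (hv : ∀ g : G, ¬ IsPRegular p g → ∑ i ∈ s, c i * (X i : G → ℂ) g = 0) (x : G) :
    MemLocalRing M ((∑ i ∈ s, c i * (X i : G → ℂ) x) /
      (Nat.card (Subgroup.centralizer ({x} : Set G)) : ℂ)) := by
  classical
  have : Fact p.Prime := ⟨hM.1⟩
  by_cases hx : IsPRegular p x
  swap
  · rw [hv x hx, zero_div]
    exact memLocalRing_zero hM
  obtain ⟨P⟩ : Nonempty (Sylow p (Subgroup.centralizer ({x} : Set G))) := inferInstance
  set C := Subgroup.centralizer ({x} : Set G) with hC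
  set D : Subgroup G := (P : Subgroup C).map C.subtype with hD
  have hDp : IsPGroup p D := P.2.map _
  have hDx : ∀ u ∈ D, u * x = x * u := by
    intro u hu
    obtain ⟨v, _, rfl⟩ := hu
    have := Subgroup.mem_centralizer_iff.1 v.2
    exact (this x rfl).symm
  have hcardD : Nat.card D = Nat.card (P : Subgroup C) :=
    Subgroup.card_map_of_injective (Subgroup.subtype_injective _)
  have hidx : ¬ p ∣ (P : Subgroup C).index := P.not_dvd_index
  have hmul : Nat.card C = Nat.card D * (P : Subgroup C).index := by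
    rw [hcardD, Subgroup.card_mul_index]
  have hD0 : (Nat.card D : ℂ) ≠ 0 := by exact_mod_cast Nat.card_pos.ne'
  -- vanishing off the identity of `D`
  have hsing : ∀ u : D, u ≠ 1 → ∑ i ∈ s, c i * (X i : G → ℂ) ((u : G) * x) = 0 := by
    intro u hu
    apply hv
    intro hreg
    apply hreg
    obtain ⟨k, hk⟩ := (IsPGroup.iff_orderOf.1 hDp) u
    have hk' : orderOf (u : G) = p ^ k := by rw [Subgroup.orderOf_coe, hk]
    have hk0 : k ≠ 0 := by
      rintro rfl
      rw [pow_zero, orderOf_eq_one_iff] at hk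
      exact hu hk
    have hcop : (orderOf (u : G)).Coprime (orderOf x) := by
      rw [hk']
      exact Nat.Coprime.pow_left _ ((Nat.Prime.coprime_iff_not_dvd hM.1).2 hx)
    rw [(show Commute (u : G) x from hDx u u.2).orderOf_mul_eq_mul_orderOf_of_coprime hcop, hk']
    exact Dvd.dvd.mul_right (dvd_pow_self p hk0) _
  have h1 : MemLocalRing M ((∑ i ∈ s, c i * (X i : G → ℂ) x) / (Nat.card D : ℂ)) := by
    have e : (∑ i ∈ s, c i * (X i : G → ℂ) x) / (Nat.card D : ℂ) =
        ∑ i ∈ s, c i * ((Nat.card D : ℂ)⁻¹ * ∑ u : D, (X i : G → ℂ) ((u : G) * x)) := by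
      have e1 : ∑ i ∈ s, c i * ((Nat.card D : ℂ)⁻¹ * ∑ u : D, (X i : G → ℂ) ((u : G) * x)) =
          (Nat.card D : ℂ)⁻¹ * ∑ u : D, ∑ i ∈ s, c i * (X i : G → ℂ) ((u : G) * x) := by
        rw [Finset.sum_comm, Finset.mul_sum]
        refine Finset.sum_congr rfl fun i _ => ?_
        rw [Finset.mul_sum, Finset.mul_sum, Finset.mul_sum]
        refine Finset.sum_congr rfl fun u _ => ?_
        ring
      rw [e1, Finset.sum_eq_single (1 : D) (fun u _ hu => hsing u hu) (by simp)]
      rw [Subgroup.coe_one, one_mul, div_eq_mul_inv, mul_comm]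
    rw [e]
    refine memLocalRing_sum hM _ _ fun i hi => memLocalRing_mul hM (hc i hi) ?_
    exact memLocalRing_of_isIntegral hM
      (isIntegral_avg_char (isCharacter_of_isIrrCharacter (X i).2) D x hDx)
  have e2 : (∑ i ∈ s, c i * (X i : G → ℂ) x) / (Nat.card C : ℂ) =
      (∑ i ∈ s, c i * (X i : G → ℂ) x) / (Nat.card D : ℂ) / ((P : Subgroup C).index : ℂ) := by
    rw [hmul, Nat.cast_mul, div_div]
  rw [e2]
  exact memLocalRing_div hM h1 (memLocalRing_natCast hM _)
    (fun h => hidx ((memLocalIdeal_natCast_iff hM _).1 h))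

end Cfsg.Agent.Lib.Helper29
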