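import Cfsg.Agent.Lib.Helper29.AutDPk

/-!
# Root coordinate table for type E7
-/

set_option autoImplicit false
set_option maxRecDepth 1000000
set_option maxHeartbeats 0

namespace Cfsg.Agent.Lib.Helper29.AutD

open Cfsg.Lie

def pkE7 : ℕ := 653400611240576211801851363344330886440360722063952767977284604562389801068972772648459524828582688726029365496131654333145526385789826367449096633899095444514287369715959779801378828184111737041143920810939652217118439460463029064675624989814561559092711931708828137042053866623981292624163530291121057195693328282475221161379499203455732140896927651221502373946624932765142053290624516627512833729385504076366160032333634864961129187851141049266006316055359184057971361916961861239674618659229812533042576336047390130370147153329715244803751075685623092868010386266140490515028176383136659010706713729967389239900963428920693376232764227813555476942640944502602307327840562223637814139616667476651070676122415243241721782793796192683921291001891562003268493749373324073235400378871430660045936931986282900213170972556508555580925215170617501764464225075014487956105491506956513406056240542230675383470991305182875711671693417654795987722408199015177825793488808511865743081673345720656691615141287570733639916269161356128102790924048881715035230455662484211046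

theorem okE7 : coOK chevE7 (mPk pkE7 7) = true := by decide +kernel

end Cfsg.Agent.Lib.Helper29.AutD
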