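import Cfsg.Agent.Lib.Helper29.AutDPk

/-!
# Root coordinate table for type E8
-/

set_option autoImplicit false
set_option maxRecDepth 1000000
set_option maxHeartbeats 0

namespace Cfsg.Agent.Lib.Helper29.AutD

open Cfsg.Lie

def pkE8 : ℕ := 5459602194303551633033982088280726774952291598553511379946316224658793910826096927559530778449125831516798717857378496367600855887739695059697238151021136414921915583971757145835681981060496546785653602920873861375385120764755047025857556610294084365811561988311080930924289040241191652082013622659104625364997181074575507269345582581242988531351197242853912070142243272397763766928079554162358388966814670475709337218659410463999440579359968941493388096652360555474817596793882937602800572226622609504471303509693865039470812594526478804482274203984335235697558020495914986203081579775576335255725607361008651434986418794235798026688816997271248688214637868698958375045668199018130111554404199161005024957401234547355787743295909551357162640164202762897144740192880966000373448557065247452212976364961289509966857969391029482582920545177185333934752861605534478845957188118234028713249714156752481218326906142430641397652499338520551987360602237811338557133267773042357824982472353178350367060900715375063325431295854977810320316005578088181437724676733682666437009886911865412479481257664942326710569507691979218763965412519451593037181707805802770047745997218103788445023741954426203298819432117386862570877675075031963160908210674799546029795317238865476059868916119288350615410125923037125801928114537257398951279672270033211656297443755966150831803758978141443641863085498280280277391813954013465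3032704457536311444173328519311005385623608324223607434684739496836732388271474285256449458884757488099227288232153701730992842250962858114478664435877167731955302398415149322671376367131659513617251751948709005043095158340087070087395352180743848362838910495193519269535676723499971102550126170430445829698292899373193572781236609075411297044777404850385399163188663307317522521851774807432331991914503678656480594988779616215364734675281631232980848067656172936778951693343929670748495798478356024142310482652543328016547160976749077659059688787129819506770885421839789773065108827648686112951711894187722727029833534306769614824964029995183393102814803825358843352487267464715119287962995461277610907662121406067665258588101228453183249620925810844155033836713710960458682709323164107014647962410475087509408330511812509546763322403986609831457913995412371989763595315853761964697633653675546209757513851990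

theorem okE8 : coOK chevE8 (mPk pkE8 8) = true := by decide +kernel

end Cfsg.Agent.Lib.Helper29.AutD
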