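import Cfsg.Agent.Lib.Helper29.AutDTabE6
import Cfsg.Agent.Lib.Helper29.AutDTabE7
import Cfsg.Agent.Lib.Helper29.AutDTabE8

/-!
# Root coordinate tables for the seven Chevalley data
-/

set_option autoImplicit false
set_option maxRecDepth 1000000
set_option maxHeartbeats 0

namespace Cfsg.Agent.Lib.Helper29.AutD

open Cfsg.Lie

/-- simply laced types: root coordinates are coroot coordinates -/
def mSL (D : ChevalleyDatum) (r : ℕ) : List ℤ := (D.coroot.getD r #[]).toList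

def tabG2 : List (List ℤ) :=
  [[-3, -2], [-3, -1], [-2, -1], [-1, -1], [-1, 0], [0, -1], [0, 1], [1, 0], [1, 1], [2, 1],
   [3, 1], [3, 2]]

def tabB2 : List (List ℤ) :=
  [[-2, -1], [-1, -1], [-1, 0], [0, -1], [0, 1], [1, 0], [1, 1], [2, 1]]

def tabF4 : List (List ℤ) :=
  [[-2, -4, -3, -2], [-2, -4, -3, -1], [-2, -4, -2, -1], [-2, -3, -2, -1], [-2, -2, -2, -1],
   [-2, -2, -1, -1], [-2, -2, -1, 0], [-1, -3, -2, -1], [-1, -2, -2, -1], [-1, -2, -1, -1],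
   [-1, -2, -1, 0], [-1, -1, -1, -1], [-1, -1, -1, 0], [-1, -1, 0, 0], [-1, 0, 0, 0],
   [0, -2, -2, -1], [0, -2, -1, -1], [0, -2, -1, 0], [0, -1, -1, -1], [0, -1, -1, 0],
   [0, -1, 0, 0], [0, 0, -1, -1], [0, 0, -1, 0], [0, 0, 0, -1], [0, 0, 0, 1], [0, 0, 1, 0],
   [0, 0, 1, 1], [0, 1, 0, 0], [0, 1, 1, 0], [0, 1, 1, 1], [0, 2, 1, 0], [0, 2, 1, 1],
   [0, 2, 2, 1], [1, 0, 0, 0], [1, 1, 0, 0], [1, 1, 1, 0], [1, 1, 1, 1], [1, 2, 1, 0],
   [1, 2, 1, 1], [1, 2, 2, 1], [1, 3, 2, 1], [2, 2, 1, 0], [2, 2, 1, 1], [2, 2, 2, 1],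
   [2, 3, 2, 1], [2, 4, 2, 1], [2, 4, 3, 1], [2, 4, 3, 2]]

theorem okG2 : coOK chevG2 (fun r => tabG2.getD r []) = true := by decide +kernel
theorem okB2 : coOK chevB2 (fun r => tabB2.getD r []) = true := by decide +kernel
theorem okF4 : coOK chevF4 (fun r => tabF4.getD r []) = true := by decide +kernel
theorem okD4 : coOK chevD4 (mSL chevD4) = true := by decide +kernel

theorem exists_coOK (D : ChevalleyDatum)
    (hD : D ∈ [chevG2, chevB2, chevD4, chevF4, chevE6, chevE7, chevE8]) :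
    ∃ m : ℕ → List ℤ, coOK D m = true := by
  simp only [List.mem_cons, List.not_mem_nil, or_false] at hD
  rcases hD with rfl | rfl | rfl | rfl | rfl | rfl | rfl
  · exact ⟨_, okG2⟩
  · exact ⟨_, okB2⟩
  · exact ⟨_, okD4⟩
  · exact ⟨_, okF4⟩
  · exact ⟨_, okE6⟩
  · exact ⟨_, okE7⟩
  · exact ⟨_, okE8⟩

/-- RUNG-2 -/
theorem exists_rootCharacter {F : Type*} [Field F] (D : ChevalleyDatum)
    (hD : D ∈ [chevG2, chevB2, chevD4, chevF4, chevE6, chevE7, chevE8]) (c : ℕ → Fˣ) :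
    ∃ χ : ℕ → Fˣ, D.IsRootCharacter χ ∧ ∀ i < D.rank, χ (D.simple i) = c i := by
  obtain ⟨m, hm⟩ := exists_coOK D hD
  exact ⟨chi D m c, chi_isRootCharacter hm c, fun i hi => chi_simple hm c hi⟩

/-- RUNG D -/
theorem exists_diagAut {F : Type*} [Field F] (D : ChevalleyDatum)
    (hD : D ∈ [chevG2, chevB2, chevD4, chevF4, chevE6, chevE7, chevE8]) (c : Fin D.rank → Fˣ) :
    ∃ (χ : ℕ → Fˣ) (d : ↥(D.group F) ≃* ↥(D.group F)), D.IsRootCharacter χ ∧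
      (∀ i : Fin D.rank, χ (D.simple i) = c i) ∧
      ∀ g : ↥(D.group F), ((d g : GL D.Idx F) : Matrix D.Idx D.Idx F) =
        D.charDiag F χ * ((g : GL D.Idx F) : Matrix D.Idx D.Idx F) *
          D.charDiag F (fun r => (χ r)⁻¹) := by
  obtain ⟨χ, hχ, hs⟩ := exists_rootCharacter D hD
    (fun i => if h : i < D.rank then c ⟨i, h⟩ else 1)
  obtain ⟨d, hd⟩ := exists_diagAut_of_char D hD χ hχ
  refine ⟨χ, d, hχ, fun i => ?_, hd⟩
  rw [hs i i.isLt, dif_pos i.isLt]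

end Cfsg.Agent.Lib.Helper29.AutD
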