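import Cfsg.Agent.S2157
import Cfsg.Prelude.Def_ChevAutomorphisms

/-!
# Rung D of the S2156 ladder: root characters and diagonal automorphisms
-/

set_option autoImplicit false

namespace Cfsg.Agent.Lib.Helper29.AutD

open Cfsg.Lie Matrix

/-- check that `m` is a table of root coordinates -/
def coOK (D : ChevalleyDatum) (m : ℕ → List ℤ) : Bool :=
  ((List.range D.nroots).all fun r =>
    (m (D.neg r) == (m r).map (fun a => -a)) && ((m r).length == D.rank) &&
    (D.chain.getD r #[]).toList.all fun e =>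
      match e.2.toList with
      | [] => true
      | km :: _ => m km.1 == List.zipWith (· + ·) (m r) (m e.1)) &&
  ((List.range D.rank).all fun i =>
    m (D.simple i) == (List.range D.rank).map fun j => if j = i then 1 else 0)

theorem getD_zipWith_add : ∀ (l1 l2 : List ℤ) (i : ℕ), l1.length = l2.length →
    (List.zipWith (· + ·) l1 l2).getD i 0 = l1.getD i 0 + l2.getD i 0
  | [], [], i, _ => by simp
  | a :: l1, b :: l2, 0, _ => by simp
  | a :: l1, b :: l2, i + 1, h => by
    have := getD_zipWith_add l1 l2 i (by simpa using h)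
    simpa using this
  | [], b :: l2, i, h => by simp at h
  | a :: l1, [], i, h => by simp at h

theorem getD_map_neg (l : List ℤ) (i : ℕ) : (l.map (fun a => -a)).getD i 0 = -(l.getD i 0) := by
  induction l generalizing i with
  | nil => simp
  | cons a l ih =>
    cases i with
    | zero => simp
    | succ i => simpa using ih i

section

variable {D : ChevalleyDatum} {m : ℕ → List ℤ}

theorem coOK_neg (h : coOK D m = true) {r : ℕ} (hr : r < D.nroots) (i : ℕ) :
    (m (D.neg r)).getD i 0 = -((m r).getD i 0) := by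
  unfold coOK at h
  rw [Bool.and_eq_true, List.all_eq_true] at h
  have h1 := h.1 r (List.mem_range.2 hr)
  simp only [Bool.and_eq_true, beq_iff_eq] at h1
  rw [h1.1.1, getD_map_neg]

theorem coOK_length (h : coOK D m = true) {r : ℕ} (hr : r < D.nroots) :
    (m r).length = D.rank := by
  unfold coOK at h
  rw [Bool.and_eq_true, List.all_eq_true] at h
  have h1 := h.1 r (List.mem_range.2 hr)
  simp only [Bool.and_eq_true, beq_iff_eq] at h1
  exact h1.1.2

theorem coOK_add (h : coOK D m = true) {r s k : ℕ} (hr : r < D.nroots) (hs : s < D.nroots)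
    (hk : D.chainRoot r s 1 = some k) (i : ℕ) :
    (m k).getD i 0 = (m r).getD i 0 + (m s).getD i 0 := by
  have hlr := coOK_length h hr
  have hls := coOK_length h hs
  unfold coOK at h
  rw [Bool.and_eq_true, List.all_eq_true] at h
  have h1 := h.1 r (List.mem_range.2 hr)
  simp only [Bool.and_eq_true, beq_iff_eq] at h1
  have h2 := h1.2
  rw [List.all_eq_true] at h2
  unfold ChevalleyDatum.chainRoot ChevalleyDatum.chainEntry at hk
  cases hf : (D.chain.getD r #[]).toList.find? (fun e => decide (e.1 = s)) with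
  | none =>
    rw [hf] at hk
    simp at hk
  | some e =>
    rw [hf] at hk
    replace hk : Option.map Prod.fst (e.2.toList)[1 - 1]? = some k := hk
    have he := List.mem_of_find?_eq_some hf
    have hes : e.1 = s := by simpa using List.find?_some hf
    have h3 := h2 e he
    cases hl : e.2.toList with
    | nil =>
      rw [hl] at hk
      simp at hk
    | cons km tl =>
      rw [hl] at hk h3
      simp only [Nat.sub_self, List.getElem?_cons_zero, Option.map_some, Option.some.injEq] at hk
      simp only [beq_iff_eq] at h3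
      rw [← hk, h3, hes, getD_zipWith_add _ _ _ (hlr.trans hls.symm)]

theorem coOK_simple (h : coOK D m = true) {i : ℕ} (hi : i < D.rank) {j : ℕ} (hj : j < D.rank) :
    (m (D.simple i)).getD j 0 = if j = i then 1 else 0 := by
  unfold coOK at h
  rw [Bool.and_eq_true, List.all_eq_true, List.all_eq_true] at h
  have h1 := h.2 i (List.mem_range.2 hi)
  simp only [beq_iff_eq] at h1
  rw [h1, List.getD_eq_getElem?_getD, List.getElem?_map, List.getElem?_range hj]
  rfl

/-- the root character with prescribed values on the fundamental roots -/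
def chi {F : Type*} [Field F] (D : ChevalleyDatum) (m : ℕ → List ℤ) (c : ℕ → Fˣ) (r : ℕ) : Fˣ :=
  ∏ i ∈ Finset.range D.rank, c i ^ ((m r).getD i 0)

theorem chi_isRootCharacter {F : Type*} [Field F] (h : coOK D m = true) (c : ℕ → Fˣ) :
    D.IsRootCharacter (chi D m c) := by
  refine ⟨fun r hr => ?_, fun r s k hr hs hk => ?_⟩
  · unfold chi
    rw [← Finset.prod_inv_distrib]
    refine Finset.prod_congr rfl fun i _ => ?_
    rw [coOK_neg h hr, _root_.zpow_neg]
  · unfold chi
    rw [← Finset.prod_mul_distrib]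
    refine Finset.prod_congr rfl fun i _ => ?_
    rw [coOK_add h hr hs hk, _root_.zpow_add]

theorem chi_simple {F : Type*} [Field F] (h : coOK D m = true) (c : ℕ → Fˣ) {i : ℕ}
    (hi : i < D.rank) : chi D m c (D.simple i) = c i := by
  unfold chi
  rw [Finset.prod_eq_single i]
  · rw [coOK_simple h hi hi, if_pos rfl, zpow_one]
  · intro j hj hji
    rw [coOK_simple h hi (Finset.mem_range.1 hj), if_neg hji, zpow_zero]
  · intro hi'
    exact absurd (Finset.mem_range.2 hi) hi'

end

section Diag

variable {F : Type*} [Field F] (D : ChevalleyDatum)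

theorem charDiag_mul_inv (χ : ℕ → Fˣ) :
    D.charDiag F χ * D.charDiag F (fun r => (χ r)⁻¹) = 1 := by
  unfold ChevalleyDatum.charDiag
  rw [Matrix.diagonal_mul_diagonal, ← Matrix.diagonal_one]
  congr 1
  funext i
  rcases i with i | i <;> simp

theorem charDiag_inv_mul (χ : ℕ → Fˣ) :
    D.charDiag F (fun r => (χ r)⁻¹) * D.charDiag F χ = 1 := by
  unfold ChevalleyDatum.charDiag
  rw [Matrix.diagonal_mul_diagonal, ← Matrix.diagonal_one]
  congr 1
  funext i
  rcases i with i | i <;> simp

/-- the diagonal matrix of `χ` as an element of `GL` -/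
def dg (χ : ℕ → Fˣ) : GL D.Idx F :=
  ⟨D.charDiag F χ, D.charDiag F (fun r => (χ r)⁻¹), charDiag_mul_inv D χ, charDiag_inv_mul D χ⟩

theorem isRootCharacter_inv {χ : ℕ → Fˣ} (hχ : D.IsRootCharacter χ) :
    D.IsRootCharacter (fun r => (χ r)⁻¹) := by
  refine ⟨fun r hr => ?_, fun r s k hr hs hk => ?_⟩
  · show (χ (D.neg r))⁻¹ = ((χ r)⁻¹)⁻¹
    rw [hχ.1 r hr]
  · show (χ k)⁻¹ = (χ r)⁻¹ * (χ s)⁻¹
    rw [hχ.2 r s k hr hs hk, mul_inv]

theorem dg_inv (χ : ℕ → Fˣ) : (dg D χ)⁻¹ = dg D (fun r => (χ r)⁻¹) := by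
  apply Units.ext
  show D.charDiag F (fun r => (χ r)⁻¹) = D.charDiag F (fun r => (χ r)⁻¹)
  rfl

theorem conj_mem (hD : D ∈ [chevG2, chevB2, chevD4, chevF4, chevE6, chevE7, chevE8])
    {χ : ℕ → Fˣ} (hχ : D.IsRootCharacter χ) {g : GL D.Idx F} (hg : g ∈ D.group F) :
    dg D χ * g * (dg D χ)⁻¹ ∈ D.group F := by
  unfold ChevalleyDatum.group at hg ⊢
  induction hg using Subgroup.closure_induction with
  | mem g hg =>
    obtain ⟨r, t, hrt⟩ := hg
    apply Subgroup.subset_closure
    refine ⟨r, (χ r : F) * t, ?_⟩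
    have h1 := Cfsg.Agent.S2157.result D hD χ hχ r.val r.isLt t
    unfold ChevalleyDatum.x at h1
    rw [dif_pos r.isLt, dif_pos r.isLt] at h1
    rw [← h1, ← hrt]
    rfl
  | one => simp
  | mul a b _ _ ha hb =>
    have : dg D χ * (a * b) * (dg D χ)⁻¹ =
        (dg D χ * a * (dg D χ)⁻¹) * (dg D χ * b * (dg D χ)⁻¹) := by group
    rw [this]
    exact Subgroup.mul_mem _ ha hb
  | inv a _ ha =>
    have : dg D χ * a⁻¹ * (dg D χ)⁻¹ = (dg D χ * a * (dg D χ)⁻¹)⁻¹ := by group
    rw [this]
    exact Subgroup.inv_mem _ ha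

/-- RUNG-3: the diagonal automorphism attached to a root character -/
theorem exists_diagAut_of_char (hD : D ∈ [chevG2, chevB2, chevD4, chevF4, chevE6, chevE7, chevE8])
    (χ : ℕ → Fˣ) (hχ : D.IsRootCharacter χ) :
    ∃ d : ↥(D.group F) ≃* ↥(D.group F), ∀ g : ↥(D.group F),
      ((d g : GL D.Idx F) : Matrix D.Idx D.Idx F) =
        D.charDiag F χ * ((g : GL D.Idx F) : Matrix D.Idx D.Idx F) *
          D.charDiag F (fun r => (χ r)⁻¹) := by
  refine ⟨{ toFun := fun g => ⟨dg D χ * g * (dg D χ)⁻¹, conj_mem D hD hχ g.2⟩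
            invFun := fun g => ⟨(dg D χ)⁻¹ * g * dg D χ, ?_⟩
            left_inv := ?_
            right_inv := ?_
            map_mul' := ?_ }, ?_⟩
  · have := conj_mem D hD (isRootCharacter_inv D hχ) g.2
    rw [← dg_inv, inv_inv] at this
    exact this
  · intro g
    apply Subtype.ext
    show (dg D χ)⁻¹ * (dg D χ * g * (dg D χ)⁻¹) * dg D χ = g
    group
  · intro g
    apply Subtype.ext
    show dg D χ * ((dg D χ)⁻¹ * g * dg D χ) * (dg D χ)⁻¹ = g
    group
  · intro a b
    apply Subtype.ext
    show dg D χ * (a * b) * (dg D χ)⁻¹ = (dg D χ * a * (dg D χ)⁻¹) * (dg D χ * b * (dg D χ)⁻¹)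
    group
  · intro g
    rfl

end Diag

end Cfsg.Agent.Lib.Helper29.AutD
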