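import Cfsg.Agent.Lib.Helper29.AutD

/-!
# Root coordinate tables: packed tables
-/

set_option autoImplicit false

namespace Cfsg.Agent.Lib.Helper29.AutD

/-- packed tables: four bits per coordinate, offset `8` -/
def mPk (T l r : ℕ) : List ℤ :=
  (List.range l).map fun i => (((T >>> (4 * (r * l + i))) % 16 : ℕ) : ℤ) - 8

end Cfsg.Agent.Lib.Helper29.AutD
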