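import Cfsg.Agent.Lib.Helper29.AutDPk

/-!
# Root coordinate table for type E6
-/

set_option autoImplicit false
set_option maxRecDepth 1000000
set_option maxHeartbeats 0

namespace Cfsg.Agent.Lib.Helper29.AutD

open Cfsg.Lie

def pkE6 : ℕ := 9144599360465614537216584420856813977327299576369876218930453410649097483180025704260490729228809729887421182774184043540399795678099975006078571106948119258884099794771659860718220518489352700976669207858551238329094999062428335393376883532549458303478921498210324354352611052758671143000569300119713795512224885336925992398087286167951882002173394859143654628121966360490915550301535545443421466132497754519634453059866016527540774451314916924561293800515237512128474186484713914318824476680803951461105312309278299751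

theorem okE6 : coOK chevE6 (mPk pkE6 6) = true := by decide +kernel

end Cfsg.Agent.Lib.Helper29.AutD
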