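import Cfsg.Agent.Lib.Helper98.FW.Main
import Cfsg.Agent.Lib.Helper30.Coprime
import Cfsg.Agent.Lib.Helper11.AxB
import Cfsg.Agent.Lib.Helper1.Coprime
import Cfsg.Agent.S0055
import Cfsg.Agent.Lib.Helper28.Conj

/-!
Bender--Glauberman 13.9 (sigma partition), the pure "Lemma F":
`P` of prime order `p` acting fixed point freely on a `q`-group `S`, `S P` acting on an `r`-group `R`
with `C_R(P)` and `C_R(S)` cyclic and `R` not cyclic.  Then `C_R(P) ≠ 1` and `C_R(S P) = 1`.
The tool is the Frobenius--Wielandt fixed point formula (Helper98).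
-/

set_option autoImplicit false
set_option linter.unusedSimpArgs false
set_option linter.unusedVariables false
set_option linter.unusedSectionVars false

namespace Cfsg.Agent.Lib.Helper29.BG139

open Subgroup
open scoped commutatorElement

variable {G : Type*} [Group G] [Finite G]

theorem mem_zpowers_of_orderOf_dvd_cyc {A : Type*} [Group A] [Finite A] [IsCyclic A] (x z : A)
    (h : orderOf x ∣ orderOf z) : x ∈ Subgroup.zpowers z := by
  classical
  have : Fintype A := Fintype.ofFinite A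
  have h1 := IsCyclic.card_pow_eq_one_le (α := A) (n := orderOf z) (orderOf_pos z)
  have h2 : (Finset.univ.filter (fun u : A => u ∈ Subgroup.zpowers z)) ⊆
      Finset.univ.filter (fun u : A => u ^ orderOf z = 1) := by
    intro u hu
    simp only [Finset.mem_filter, Finset.mem_univ, true_and] at hu ⊢
    obtain ⟨k, rfl⟩ := hu
    show (z ^ k) ^ orderOf z = 1
    rw [← zpow_natCast, ← zpow_mul, mul_comm, zpow_mul, zpow_natCast, pow_orderOf_eq_one, one_zpow]
  have h3 : (Finset.univ.filter (fun u : A => u ∈ Subgroup.zpowers z)).card = orderOf z := by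
    rw [← Nat.card_zpowers, Nat.card_eq_fintype_card, Fintype.card_subtype]
  have h4 := Finset.eq_of_subset_of_card_le h2 (by rw [h3]; exact h1)
  have h5 : x ∈ Finset.univ.filter (fun u : A => u ^ orderOf z = 1) := by
    simp only [Finset.mem_filter, Finset.mem_univ, true_and]
    exact orderOf_dvd_iff_pow_eq_one.mp h
  rw [← h4] at h5
  simpa using h5

theorem exists_orderOf_eq_of_ne_bot {r : ℕ} [hr : Fact r.Prime] {H : Subgroup G}
    (hH : IsPGroup r H) (hH1 : H ≠ ⊥) : ∃ h ∈ H, orderOf h = r := by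
  have hnt : Nontrivial H := (nontrivial_iff_ne_bot H).2 hH1
  obtain ⟨n, hn0, hn⟩ := hH.nontrivial_iff_card.1 hnt
  have hdvd : r ∣ Nat.card H := by rw [hn]; exact dvd_pow_self r hn0.ne'
  obtain ⟨h, hh⟩ := exists_prime_orderOf_dvd_card' (G := H) r hdvd
  exact ⟨h, h.2, by rw [Subgroup.orderOf_coe, hh]⟩

/-- an element of order dividing `r` of a cyclic `r`-group lies in every nontrivial subgroup. -/
theorem mem_of_isCyclic_of_ne_bot {r : ℕ} [hr : Fact r.Prime] {K H : Subgroup G} (hK : IsCyclic K)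
    (hKr : IsPGroup r K) {y : G} (hy : y ∈ K) (hyr : y ^ r = 1) (hH : H ≤ K) (hH1 : H ≠ ⊥) :
    y ∈ H := by
  obtain ⟨h, hhH, hh⟩ := exists_orderOf_eq_of_ne_bot (hKr.to_le hH) hH1
  have h1 := mem_zpowers_of_orderOf_dvd_cyc (⟨y, hy⟩ : K) ⟨h, hH hhH⟩ (by
    rw [Subgroup.orderOf_mk, Subgroup.orderOf_mk, hh]; exact orderOf_dvd_of_pow_eq_one hyr)
  obtain ⟨k, hk⟩ := h1
  have h2 : h ^ k = y := congrArg Subtype.val hk
  rw [← h2]
  exact H.zpow_mem hhH k

theorem le_centralizer_self_of_le_isCyclic {K H : Subgroup G} (hK : IsCyclic K) (hH : H ≤ K) :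
    H ≤ centralizer (H : Set G) := by
  intro x hx
  rw [mem_centralizer_iff]
  intro z hz
  have := mul_comm' (⟨z, hH hz⟩ : K) ⟨x, hH hx⟩
  exact congrArg Subtype.val this

/-- the configuration of Lemma F. -/
structure Cfg (p q r : ℕ) (P S R : Subgroup G) : Prop where
  hp : p.Prime
  hq : q.Prime
  hr : r.Prime
  hpq : p ≠ q
  hpr : p ≠ r
  hqr : q ≠ r
  hP : Nat.card P = p
  hS : IsPGroup q S
  hR : IsPGroup r R
  hPS : P ≤ normalizer (S : Set G)
  hSR : S ≤ normalizer (R : Set G)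
  hPR : P ≤ normalizer (R : Set G)
  hfpf : S ⊓ centralizer (P : Set G) = ⊥

variable {p q r : ℕ} {P S R : Subgroup G}

theorem Cfg.fpf (c : Cfg p q r P S R) :
    ∀ e ∈ P, e ≠ 1 → ∀ u ∈ S, e * u = u * e → u = 1 := by
  intro e he he1 u hu hcomm
  have : Fact p.Prime := ⟨c.hp⟩
  have hmem : u ∈ S ⊓ centralizer (P : Set G) := by
    refine mem_inf.mpr ⟨hu, ?_⟩
    rw [mem_centralizer_iff]
    intro a ha
    have h1 : (⟨a, ha⟩ : P) ∈ zpowers (⟨e, he⟩ : P) :=
      mem_zpowers_of_prime_card c.hP (by intro h; exact he1 (congrArg Subtype.val h))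
    obtain ⟨k, hk⟩ := h1
    have h2 : e ^ k = a := congrArg Subtype.val hk
    rw [← h2]
    exact ((Commute.zpow_left (show Commute e u from hcomm) k)).eq
  rw [c.hfpf, mem_bot] at hmem
  exact hmem

theorem Cfg.copS (c : Cfg p q r P S R) {H : Subgroup G} (hH : H ≤ R) :
    (Nat.card S).Coprime (Nat.card H) := by
  have : Fact q.Prime := ⟨c.hq⟩
  have : Fact r.Prime := ⟨c.hr⟩
  obtain ⟨k, hk⟩ := IsPGroup.iff_card.mp c.hS
  obtain ⟨m, hm⟩ := IsPGroup.iff_card.mp (c.hR.to_le hH)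
  rw [hk, hm]
  exact Nat.Coprime.pow _ _ ((Nat.coprime_primes c.hq c.hr).mpr c.hqr)

theorem Cfg.copP (c : Cfg p q r P S R) {H : Subgroup G} (hH : H ≤ R) :
    (Nat.card P).Coprime (Nat.card H) := by
  have : Fact r.Prime := ⟨c.hr⟩
  obtain ⟨m, hm⟩ := IsPGroup.iff_card.mp (c.hR.to_le hH)
  rw [c.hP, hm]
  exact Nat.Coprime.pow_right _ ((Nat.coprime_primes c.hp c.hr).mpr c.hpr)

theorem Cfg.cop (c : Cfg p q r P S R) {H : Subgroup G} (hH : H ≤ R) :
    (Nat.card H).Coprime (Nat.card ↥(S ⊔ P)) := by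
  have : Fact q.Prime := ⟨c.hq⟩
  obtain ⟨k, hk⟩ := IsPGroup.iff_card.mp c.hS
  have h1 : (Nat.card P).Coprime (Nat.card S) := by
    rw [c.hP, hk]
    exact Nat.Coprime.pow_right _ ((Nat.coprime_primes c.hp c.hq).mpr c.hpq)
  have h2 : Nat.card (P ⊔ S : Subgroup G) = Nat.card P * Nat.card S :=
    Cfsg.Agent.Lib.Helper1.card_sup_of_coprime_le_normalizer c.hPS h1
  rw [sup_comm, h2]
  exact Nat.Coprime.mul_right (c.copP hH).symm (c.copS hH).symm

theorem Cfg.solv (c : Cfg p q r P S R) {H : Subgroup G} (hH : H ≤ R) : Group.IsSolvable H := by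
  have : Fact r.Prime := ⟨c.hr⟩
  have := (c.hR.to_le hH).isNilpotent
  infer_instance

/-- KEY (from the fixed point formula): an `S P`-invariant subgroup `H` of `R` with
`C_H(P) ≤ C(S)` is centralized by `S`. -/
theorem Cfg.key (c : Cfg p q r P S R) {H : Subgroup G} (hH : H ≤ R)
    (hSH : S ≤ normalizer (H : Set G)) (hPH : P ≤ normalizer (H : Set G))
    (hC : H ⊓ centralizer (P : Set G) ≤ centralizer (S : Set G)) :
    H ≤ centralizer (S : Set G) := by
  have : Fact q.Prime := ⟨c.hq⟩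
  have hf := Cfsg.Agent.Lib.Helper98.FW.fw_formula S P c.hPS c.hS.isNilpotent c.fpf H
    (sup_le hSH hPH) (c.solv hH) (c.cop hH)
  have heq : H ⊓ centralizer ((S ⊔ P : Subgroup G) : Set G) = H ⊓ centralizer (P : Set G) := by
    apply le_antisymm
    · exact inf_le_inf_left _ (centralizer_le (le_sup_right : P ≤ S ⊔ P))
    · refine le_inf inf_le_left ?_
      rw [le_centralizer_iff]
      exact sup_le (le_centralizer_iff.mp hC) (le_centralizer_iff.mp inf_le_right)
  rw [heq] at hf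
  have hpos : 0 < Nat.card ↥(H ⊓ centralizer (P : Set G)) ^ Nat.card P := pow_pos Nat.card_pos _
  have hcard : Nat.card H = Nat.card ↥(H ⊓ centralizer (S : Set G)) :=
    Nat.eq_of_mul_eq_mul_left hpos hf
  have h3 : H ⊓ centralizer (S : Set G) = H := eq_of_le_of_card_ge inf_le_left hcard.le
  rw [← h3]
  exact inf_le_right

/-- (i): every `S P`-invariant abelian subgroup of `R` is centralized by `S`. -/
theorem Cfg.abelian (c : Cfg p q r P S R) (hcP : IsCyclic ↥(R ⊓ centralizer (P : Set G))) {y : G}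
    (hyR : y ∈ R) (hyS : y ∈ centralizer (S : Set G)) (hyP : y ∈ centralizer (P : Set G))
    (hy1 : y ≠ 1) (hyr : y ^ r = 1) {V : Subgroup G} (hVR : V ≤ R)
    (hVV : V ≤ centralizer (V : Set G)) (hSV : S ≤ normalizer (V : Set G))
    (hPV : P ≤ normalizer (V : Set G)) : V ≤ centralizer (S : Set G) := by
  have : Fact r.Prime := ⟨c.hr⟩
  have : IsMulCommutative V := le_centralizer_iff_isMulCommutative.mp hVV
  obtain ⟨h1, -⟩ := Cfsg.Agent.S0055.result S V hSV (c.copS hVR)
  have hHV : ⁅V, S⁆ ≤ V := Cfsg.Agent.Lib.Helper30.commutator_le_of_le_normalizer hSV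
  have hb : ⁅V, S⁆ ⊓ centralizer (P : Set G) = ⊥ := by
    by_contra hne
    have hy : y ∈ ⁅V, S⁆ ⊓ centralizer (P : Set G) :=
      mem_of_isCyclic_of_ne_bot hcP (c.hR.to_le inf_le_left) ⟨hyR, hyP⟩ hyr
        (inf_le_inf_right _ (hHV.trans hVR)) hne
    have h2 : y ∈ (V ⊓ centralizer (S : Set G)) ⊓ ⁅V, S⁆ := ⟨⟨hHV hy.1, hyS⟩, hy.1⟩
    rw [h1, mem_bot] at h2
    exact hy1 h2
  have hHS : ⁅V, S⁆ ≤ centralizer (S : Set G) :=
    c.key (hHV.trans hVR) (Cfsg.Agent.Lib.Helper30.le_normalizer_commutator hSV le_normalizer)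
      (Cfsg.Agent.Lib.Helper30.le_normalizer_commutator hPV c.hPS) (by rw [hb]; exact bot_le)
  have hH0 : ⁅V, S⁆ = ⊥ := by
    rw [eq_bot_iff, ← h1]
    exact le_inf (le_inf hHV hHS) le_rfl
  exact commutator_eq_bot_iff_le_centralizer.mp hH0

theorem Cfg.main (c : Cfg p q r P S R) (hcP : IsCyclic ↥(R ⊓ centralizer (P : Set G)))
    (hcS : IsCyclic ↥(R ⊓ centralizer (S : Set G))) (hRn : ¬ IsCyclic R) :
    R ⊓ centralizer (P : Set G) ≠ ⊥ ∧
      R ⊓ centralizer (S : Set G) ⊓ centralizer (P : Set G) = ⊥ := by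
  have : Fact r.Prime := ⟨c.hr⟩
  have hnotS : ¬ R ≤ centralizer (S : Set G) := by
    intro h
    apply hRn
    have h1 : R ⊓ centralizer (S : Set G) = R := inf_eq_left.mpr h
    rwa [h1] at hcS
  constructor
  · intro hbot
    exact hnotS (c.key le_rfl c.hSR c.hPR (by rw [hbot]; exact bot_le))
  by_contra hne
  obtain ⟨y, hyY, hyo⟩ := exists_orderOf_eq_of_ne_bot
    (c.hR.to_le (inf_le_left.trans inf_le_left)) hne
  have hyR : y ∈ R := hyY.1.1
  have hyS : y ∈ centralizer (S : Set G) := hyY.1.2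
  have hyP : y ∈ centralizer (P : Set G) := hyY.2
  have hy1 : y ≠ 1 := by
    intro h
    rw [h, orderOf_one] at hyo
    exact c.hr.one_lt.ne hyo
  have hyr : y ^ r = 1 := by rw [← hyo]; exact pow_orderOf_eq_one y
  -- the acting group
  set L : Subgroup G := R ⊔ (S ⊔ P) with hL
  have hRL : R ≤ L := le_sup_left
  have hSL : S ≤ L := le_sup_left.trans le_sup_right
  have hPL : P ≤ L := le_sup_right.trans le_sup_right
  have hLR : L ≤ normalizer (R : Set G) := sup_le le_normalizer (sup_le c.hSR c.hPR)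
  -- a maximal abelian invariant subgroup
  obtain ⟨V, ⟨hVR, hVV, hLV⟩, hVmax⟩ := (Set.toFinite {V : Subgroup G | V ≤ R ∧
    V ≤ centralizer (V : Set G) ∧ L ≤ normalizer (V : Set G)}).exists_maximal
    ⟨⊥, bot_le, bot_le, by rw [normalizer_eq_top]; exact le_top⟩
  have hVmax' : ∀ V' : Subgroup G, V' ≤ R → V' ≤ centralizer (V' : Set G) →
      L ≤ normalizer (V' : Set G) → V ≤ V' → V' ≤ V := fun V' h1 h2 h3 h4 => hVmax ⟨h1, h2, h3⟩ h4
  have hVS : V ≤ centralizer (S : Set G) :=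
    c.abelian hcP hyR hyS hyP hy1 hyr hVR hVV (hSL.trans hLV) (hPL.trans hLV)
  have hVP : V ≤ centralizer (P : Set G) := by
    have : IsMulCommutative V := le_centralizer_iff_isMulCommutative.mp hVV
    obtain ⟨h1, -⟩ := Cfsg.Agent.S0055.result P V (hPL.trans hLV) (c.copP hVR)
    have hHV : ⁅V, P⁆ ≤ V := Cfsg.Agent.Lib.Helper30.commutator_le_of_le_normalizer (hPL.trans hLV)
    apply commutator_eq_bot_iff_le_centralizer.mp
    by_contra hne2
    have hy : y ∈ ⁅V, P⁆ :=
      mem_of_isCyclic_of_ne_bot hcS (c.hR.to_le inf_le_left) ⟨hyR, hyS⟩ hyr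
        (hHV.trans (le_inf hVR hVS)) hne2
    have h2 : y ∈ (V ⊓ centralizer (P : Set G)) ⊓ ⁅V, P⁆ := ⟨⟨hHV hy, hyP⟩, hy⟩
    rw [h1, mem_bot] at h2
    exact hy1 h2
  have hLCV : L ≤ normalizer ((centralizer (V : Set G) : Subgroup G) : Set G) :=
    hLV.trans (Cfsg.Agent.Lib.Helper28.normalizer_le_normalizer_centralizer V)
  -- `V` is self-centralizing in `R`
  have hCV : R ⊓ centralizer (V : Set G) ≤ V := by
    by_contra hCV
    obtain ⟨W, ⟨hWC, hLW, hWV⟩, hWmin⟩ := (Set.toFinite {W : Subgroup G |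
      W ≤ R ⊓ centralizer (V : Set G) ∧ L ≤ normalizer (W : Set G) ∧ ¬ W ≤ V}).exists_minimal
      ⟨R ⊓ centralizer (V : Set G), le_rfl,
        Cfsg.Agent.Lib.Helper30.le_normalizer_inf hLR hLCV, hCV⟩
    have hWR : W ≤ R := hWC.trans inf_le_left
    have hWCV : W ≤ centralizer (V : Set G) := hWC.trans inf_le_right
    have hW1 : W ≠ ⊥ := by
      intro h
      exact hWV (by rw [h]; exact bot_le)
    have hlt : ⁅W, R⁆ < W := Cfsg.Agent.Lib.Helper11.commutator_lt_of_isPGroup W R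
      (c.hR.to_le hWR) c.hR (hRL.trans hLW) hW1
    have hWRV : ⁅W, R⁆ ≤ V := by
      by_contra h
      have := hWmin ⟨hlt.le.trans hWC,
        Cfsg.Agent.Lib.Helper30.le_normalizer_commutator hLW hLR, h⟩ hlt.le
      exact absurd hlt (not_lt_of_ge this)
    by_cases hcase : W ⊓ centralizer (P : Set G) ≤ V
    · have hWS : W ≤ centralizer (S : Set G) :=
        c.key hWR (hSL.trans hLW) (hPL.trans hLW) (hcase.trans hVS)
      have h1 : V ⊔ W ≤ R ⊓ centralizer (S : Set G) :=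
        sup_le (le_inf hVR hVS) (le_inf hWR hWS)
      have h2 := hVmax' (V ⊔ W) (h1.trans inf_le_left) (le_centralizer_self_of_le_isCyclic hcS h1)
        (Cfsg.Agent.Lib.Helper30.le_normalizer_sup hLV hLW) le_sup_left
      exact hWV (le_sup_right.trans h2)
    · obtain ⟨c0, hc0, hc0V⟩ := SetLike.not_le_iff_exists.mp hcase
      have hc0W : c0 ∈ W := hc0.1
      have hc0P : c0 ∈ centralizer (P : Set G) := hc0.2
      have hdec : ⁅W, P⁆ ⊔ (W ⊓ centralizer (P : Set G)) = W :=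
        Cfsg.Agent.Lib.Helper30.commutator_sup_centralizer (hPL.trans hLW) (c.copP hWR)
          (Or.inr (c.solv hWR))
      have hWc0 : W ≤ centralizer ({c0} : Set G) := by
        rw [← hdec]
        apply sup_le
        · rw [commutator_le]
          intro x hx a ha
          rw [mem_centralizer_singleton_iff]
          have hz : ⁅c0, x⁆ ∈ V := hWRV (commutator_mem_commutator hc0W (hWR hx))
          have hw : ⁅x, a⁆ ∈ W :=
            (Cfsg.Agent.Lib.Helper30.commutator_le_of_le_normalizer (hPL.trans hLW))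
              (commutator_mem_commutator hx ha)
          have e2 : a * c0 = c0 * a := mem_centralizer_iff.mp hc0P a ha
          have e3 : a * ⁅c0, x⁆ = ⁅c0, x⁆ * a := mem_centralizer_iff.mp (hVP hz) a ha
          have e4 : ⁅c0, x⁆ * ⁅x, a⁆ = ⁅x, a⁆ * ⁅c0, x⁆ := mem_centralizer_iff.mp (hWCV hw) _ hz
          generalize hzz : ⁅c0, x⁆ = z at e3 e4
          have e1 : c0 * x = z * x * c0 := by
            rw [← hzz, commutatorElement_def]; group
          have e1' : c0 * x⁻¹ = x⁻¹ * z⁻¹ * c0 := by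
            have : c0 = x⁻¹ * z⁻¹ * (c0 * x) := by rw [e1]; group
            calc c0 * x⁻¹ = (x⁻¹ * z⁻¹ * (c0 * x)) * x⁻¹ := by rw [← this]
              _ = x⁻¹ * z⁻¹ * c0 := by group
          have e2' : c0 * a⁻¹ = a⁻¹ * c0 := by
            calc c0 * a⁻¹ = a⁻¹ * (a * c0) * a⁻¹ := by group
              _ = a⁻¹ * (c0 * a) * a⁻¹ := by rw [e2]
              _ = a⁻¹ * c0 := by group
          have e3' : z⁻¹ * a⁻¹ = a⁻¹ * z⁻¹ := by
            calc z⁻¹ * a⁻¹ = (a * z)⁻¹ := by group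
              _ = (z * a)⁻¹ := by rw [e3]
              _ = a⁻¹ * z⁻¹ := by group
          rw [commutatorElement_def] at e4 ⊢
          symm
          calc c0 * (x * a * x⁻¹ * a⁻¹) = (c0 * x) * a * x⁻¹ * a⁻¹ := by group
            _ = z * x * (c0 * a) * x⁻¹ * a⁻¹ := by rw [e1]; group
            _ = z * x * a * (c0 * x⁻¹) * a⁻¹ := by rw [← e2]; group
            _ = z * x * a * x⁻¹ * z⁻¹ * (c0 * a⁻¹) := by rw [e1']; group
            _ = z * x * a * x⁻¹ * (z⁻¹ * a⁻¹) * c0 := by rw [e2']; group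
            _ = (z * (x * a * x⁻¹ * a⁻¹)) * z⁻¹ * c0 := by rw [e3']; group
            _ = x * a * x⁻¹ * a⁻¹ * c0 := by rw [e4]; group
        · intro x hx
          rw [mem_centralizer_singleton_iff]
          have h1 := le_centralizer_self_of_le_isCyclic hcP
            (inf_le_inf_right (centralizer (P : Set G)) hWR)
          exact (mem_centralizer_iff.mp (h1 hx) c0 hc0).symm
      have hc0Z : c0 ∈ W ⊓ centralizer (W : Set G) := by
        refine mem_inf.mpr ⟨hc0W, ?_⟩
        rw [mem_centralizer_iff]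
        intro x hx
        exact mem_centralizer_singleton_iff.mp (hWc0 hx)
      have hZV : W ⊓ centralizer (W : Set G) ≤ centralizer (V : Set G) := inf_le_left.trans hWCV
      have hab : V ⊔ (W ⊓ centralizer (W : Set G)) ≤
          centralizer ((V ⊔ (W ⊓ centralizer (W : Set G)) : Subgroup G) : Set G) := by
        apply sup_le
        · rw [le_centralizer_iff]
          exact sup_le hVV hZV
        · rw [le_centralizer_iff]
          refine sup_le (le_centralizer_iff.mp hZV) ?_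
          exact inf_le_right.trans (centralizer_le (inf_le_left : W ⊓ centralizer (W : Set G) ≤ W))
      have h2 := hVmax' (V ⊔ (W ⊓ centralizer (W : Set G))) (sup_le hVR (inf_le_left.trans hWR)) hab
        (Cfsg.Agent.Lib.Helper30.le_normalizer_sup hLV
          (Cfsg.Agent.Lib.Helper30.le_normalizer_inf hLW
            (hLW.trans (Cfsg.Agent.Lib.Helper28.normalizer_le_normalizer_centralizer W))))
        le_sup_left
      exact hc0V (h2 (le_sup_right (a := V) hc0Z))
  -- three subgroups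
  have hRSV : ⁅R, S⁆ ≤ centralizer (V : Set G) := by
    rw [commutator_le]
    intro x hx s hs
    rw [mem_centralizer_iff]
    intro v hv
    have hv' : x⁻¹ * v * x ∈ V := by
      have := (mem_normalizer_iff.mp (hLV (hRL (R.inv_mem hx))) v).mp hv
      simpa using this
    have e1 : s * v = v * s := mem_centralizer_iff.mp (hVS hv) s hs
    have e2 : s * (x⁻¹ * v * x) = (x⁻¹ * v * x) * s := mem_centralizer_iff.mp (hVS hv') s hs
    rw [commutatorElement_def]
    have e1' : v * s⁻¹ = s⁻¹ * v := by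
      calc v * s⁻¹ = s⁻¹ * (s * v) * s⁻¹ := by group
        _ = s⁻¹ * (v * s) * s⁻¹ := by rw [e1]
        _ = s⁻¹ * v := by group
    calc v * (x * s * x⁻¹ * s⁻¹) = x * ((x⁻¹ * v * x) * s) * x⁻¹ * s⁻¹ := by group
      _ = x * (s * (x⁻¹ * v * x)) * x⁻¹ * s⁻¹ := by rw [e2]
      _ = x * s * x⁻¹ * (v * s⁻¹) := by group
      _ = x * s * x⁻¹ * s⁻¹ * v := by rw [e1']; group
  have hRSR : ⁅R, S⁆ ≤ R := Cfsg.Agent.Lib.Helper30.commutator_le_of_le_normalizer c.hSR
  have h1 : ⁅R, S⁆ ≤ centralizer (S : Set G) := (le_inf hRSR hRSV).trans (hCV.trans hVS)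
  have h2 : ⁅⁅R, S⁆, S⁆ = ⊥ := commutator_eq_bot_iff_le_centralizer.mpr h1
  rw [Cfsg.Agent.Lib.Helper30.commutator_commutator_eq c.hSR (c.copS le_rfl)
    (Or.inr (c.solv le_rfl))] at h2
  exact hnotS (commutator_eq_bot_iff_le_centralizer.mp h2)

/-- **Lemma F** (step 9 of the proof of B-G 13.9). -/
theorem lemmaF {p q r : ℕ} (hp : p.Prime) (hq : q.Prime) (hr : r.Prime) (hpq : p ≠ q) (hpr : p ≠ r)
    (hqr : q ≠ r) {P S R : Subgroup G} (hP : Nat.card P = p) (hS : IsPGroup q S)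
    (hR : IsPGroup r R) (hPS : P ≤ normalizer (S : Set G)) (hSR : S ≤ normalizer (R : Set G))
    (hPR : P ≤ normalizer (R : Set G)) (hfpf : S ⊓ centralizer (P : Set G) = ⊥)
    (hcP : IsCyclic ↥(R ⊓ centralizer (P : Set G)))
    (hcS : IsCyclic ↥(R ⊓ centralizer (S : Set G))) (hRn : ¬ IsCyclic R) :
    R ⊓ centralizer (P : Set G) ≠ ⊥ ∧
      R ⊓ centralizer (S : Set G) ⊓ centralizer (P : Set G) = ⊥ :=
  Cfg.main ⟨hp, hq, hr, hpq, hpr, hqr, hP, hS, hR, hPS, hSR, hPR, hfpf⟩ hcP hcS hRn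

end Cfsg.Agent.Lib.Helper29.BG139
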