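import Mathlib
import Cfsg.Prelude.Def_Balance
import Cfsg.Agent.Lib.Helper29.Transport

set_option autoImplicit false

namespace Cfsg.Agent.Lib.Helper29

open scoped Pointwise

variable {X : Type*} [Group X]

/-- `L_{2'}(X) O_{2',2}(X)` -/
abbrev NN (X : Type*) [Group X] : Subgroup X := pLayer 2 X ⊔ pPrimePCore 2 X

/-- `O(C_X(T))` -/
def DD (T : Subgroup X) : Subgroup X := coreOf 2 (Subgroup.centralizer (T : Set X))

/-- A Sylow subgroup of a subgroup seen in the ambient group -/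
abbrev up {N : Subgroup X} {p : ℕ} (T : Sylow p N) : Subgroup X := (T : Subgroup N).map N.subtype

theorem extendedTwoLayer_eq :
    extendedTwoLayer X = pLayer 2 X ⊔ oddCore X ⊔ ⨆ T : Sylow 2 ↥(NN X), DD (up T) := rfl

theorem NN_normal : (NN X).Normal := by
  have := pLayer_normal (G := X) 2
  have := pPrimePCore_normal (G := X) 2
  infer_instance

theorem DD_map_cj (T : Subgroup X) (g : X) : DD (T.map (cj g)) = (DD T).map (cj g) := by
  unfold DD
  rw [centralizer_map_cj, coreOf_map_cj]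

theorem up_le {N : Subgroup X} {p : ℕ} (T : Sylow p N) : up T ≤ N := by
  rintro _ ⟨x, -, rfl⟩
  exact x.2

theorem card_up {N : Subgroup X} {p : ℕ} (T : Sylow p N) : Nat.card (up T) = Nat.card T :=
  Subgroup.card_map_of_injective N.subtype_injective

theorem exists_sylow_up_eq [Finite X] {p : ℕ} [Fact p.Prime] (N Q : Subgroup X) (hQ : Q ≤ N)
    (hcard : Nat.card Q = p ^ (Nat.card N).factorization p) : ∃ T : Sylow p N, up T = Q := by
  have h1 : Nat.card (Q.subgroupOf N) = p ^ (Nat.card N).factorization p := by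
    rw [← hcard]
    exact Nat.card_congr (Subgroup.subgroupOfEquivOfLe hQ).toEquiv
  refine ⟨Sylow.ofCard (Q.subgroupOf N) h1, ?_⟩
  change (Q.subgroupOf N).map N.subtype = Q
  exact Subgroup.map_subgroupOf_eq_of_le hQ

theorem exists_sylow_up_eq_map_cj [Finite X] {p : ℕ} [Fact p.Prime] (N : Subgroup X) [hN : N.Normal]
    (T : Sylow p N) (g : X) : ∃ T' : Sylow p N, up T' = (up T).map (cj g) := by
  apply exists_sylow_up_eq
  · have := Subgroup.map_mono (f := cj g) (up_le T)
    rwa [map_cj_eq_of_normal g N] at this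
  · rw [card_map_cj, card_up]
    exact T.card_eq_multiplicity

theorem extendedTwoLayer_normal [Finite X] : (extendedTwoLayer X).Normal := by
  have h1 := pLayer_normal (G := X) 2
  have h2 := NN_normal (X := X)
  have : Fact (Nat.Prime 2) := ⟨Nat.prime_two⟩
  apply normal_of_map_cj_le
  intro g
  rw [extendedTwoLayer_eq, Subgroup.map_sup, Subgroup.map_sup, map_cj_eq_of_normal,
    map_cj_eq_of_normal, Subgroup.map_iSup]
  apply sup_le_sup_left
  apply iSup_le
  intro T
  obtain ⟨T', hT'⟩ := exists_sylow_up_eq_map_cj (NN X) T g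
  rw [← DD_map_cj, ← hT']
  exact le_iSup (fun T : Sylow 2 ↥(NN X) => DD (up T)) T'

theorem pPrimeCore_le_pPrimePCore (p : ℕ) : pPrimeCore p X ≤ pPrimePCore p X := by
  intro x hx
  unfold pPrimePCore
  rw [Subgroup.mem_comap]
  have : QuotientGroup.mk' (pPrimeCore p X) x = 1 := by
    rw [QuotientGroup.mk'_apply, QuotientGroup.eq_one_iff]; exact hx
  rw [this]; exact one_mem _

theorem relIndex_pPrimeCore_pPrimePCore (p : ℕ) :
    (pPrimeCore p X).relIndex (pPrimePCore p X) = Nat.card (pCore p (X ⧸ pPrimeCore p X)) := by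
  have h1 : pPrimeCore p X = (⊥ : Subgroup (X ⧸ pPrimeCore p X)).comap
      (QuotientGroup.mk' (pPrimeCore p X)) := by
    rw [MonoidHom.comap_bot, QuotientGroup.ker_mk']
  conv_lhs => rw [h1]
  rw [Subgroup.relIndex_comap, Subgroup.relIndex_bot_left]
  unfold pPrimePCore
  rw [Subgroup.map_comap_eq_self_of_surjective (QuotientGroup.mk'_surjective _)]

/-- `L_{2'}(X) O_{2',2}(X) = L_{2'}(X) O(X) T` for a Sylow 2-subgroup `T`. -/
theorem NN_le_sup_sylow [Finite X] (T : Sylow 2 ↥(NN X)) :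
    NN X ≤ (pLayer 2 X ⊔ oddCore X) ⊔ up T := by
  have h1 := pLayer_normal (G := X) 2
  have : Fact (Nat.Prime 2) := ⟨Nat.prime_two⟩
  have hR : (pLayer 2 X ⊔ oddCore X).Normal := inferInstance
  rw [← Subgroup.relIndex_eq_one]
  have hd1 : ((pLayer 2 X ⊔ oddCore X) ⊔ up T).relIndex (NN X) ∣ (up T).relIndex (NN X) :=
    Subgroup.relIndex_dvd_of_le_left _ le_sup_right
  have hd2 : ((pLayer 2 X ⊔ oddCore X) ⊔ up T).relIndex (NN X) ∣
      (pLayer 2 X ⊔ oddCore X).relIndex (NN X) :=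
    Subgroup.relIndex_dvd_of_le_left _ le_sup_left
  have hT : (up T).relIndex (NN X) = (T : Subgroup (NN X)).index := by
    unfold Subgroup.relIndex
    congr 1
    exact Subgroup.comap_map_eq_self_of_injective (NN X).subtype_injective _
  have hodd : ¬ 2 ∣ (up T).relIndex (NN X) := by
    rw [hT]; exact T.not_dvd_index
  have hNN : NN X = (pLayer 2 X ⊔ oddCore X) ⊔ pPrimePCore 2 X := by
    rw [sup_assoc, sup_eq_right.mpr (pPrimeCore_le_pPrimePCore 2)]
  have hpow : ∃ k, (pLayer 2 X ⊔ oddCore X).relIndex (NN X) ∣ 2 ^ k := by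
    obtain ⟨k, hk⟩ := IsPGroup.iff_card.mp (isPGroup_pCore (G := X ⧸ pPrimeCore 2 X) Nat.prime_two)
    refine ⟨k, ?_⟩
    rw [hNN, Subgroup.relIndex_sup_left, ← hk, ← relIndex_pPrimeCore_pPrimePCore]
    exact Subgroup.relIndex_dvd_of_le_left _ le_sup_right
  obtain ⟨k, hk⟩ := hpow
  obtain ⟨j, -, hj⟩ := (Nat.dvd_prime_pow Nat.prime_two).mp (hd2.trans hk)
  rw [hj] at hd1 ⊢
  rcases Nat.eq_zero_or_pos j with rfl | hjpos
  · simp
  · exact absurd ((dvd_pow_self 2 hjpos.ne').trans hd1) hodd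

theorem DD_le_of_sylow [Finite X] (T T' : Sylow 2 ↥(NN X)) :
    DD (up T') ≤ pLayer 2 X ⊔ oddCore X ⊔ DD (up T) := by
  have h1 := pLayer_normal (G := X) 2
  have : Fact (Nat.Prime 2) := ⟨Nat.prime_two⟩
  have hR : (pLayer 2 X ⊔ oddCore X).Normal := inferInstance
  obtain ⟨n, hn⟩ := MulAction.exists_smul_eq (NN X) T T'
  have hup : up T' = (up T).map (cj (n : X)) := by
    rw [← hn]
    change ((T : Subgroup (NN X)).map (cj n)).map (NN X).subtype = _
    rw [Subgroup.map_map, Subgroup.map_map]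
    rfl
  obtain ⟨r, hr, t, ht, hrt⟩ := Subgroup.mem_sup_of_normal_left.mp (NN_le_sup_sylow T n.2)
  have hcomp : (up T).map (cj (n : X)) = (up T).map (cj r) := by
    rw [← hrt]
    have h3 : cj (r * t) = (cj r).comp (cj t) := by
      ext x; simp [mul_assoc]
    rw [h3, ← Subgroup.map_map]
    congr 1
    apply le_antisymm
    · rintro _ ⟨x, hx, rfl⟩
      exact mul_mem (mul_mem ht hx) (inv_mem ht)
    · intro x hx
      exact ⟨t⁻¹ * x * t, mul_mem (mul_mem (inv_mem ht) hx) ht, by simp [mul_assoc]⟩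
  rw [hup, hcomp, DD_map_cj]
  rintro _ ⟨x, hx, rfl⟩
  exact mul_mem (mul_mem (Subgroup.mem_sup_left hr) (Subgroup.mem_sup_right hx))
    (inv_mem (Subgroup.mem_sup_left hr))

theorem extendedTwoLayer_eq_of_sylow [Finite X] (T : Sylow 2 ↥(NN X)) :
    extendedTwoLayer X = pLayer 2 X ⊔ oddCore X ⊔ DD (up T) := by
  rw [extendedTwoLayer_eq]
  apply le_antisymm
  · exact sup_le le_sup_left (iSup_le fun T' => DD_le_of_sylow T T')
  · exact sup_le_sup_left (le_iSup (fun T : Sylow 2 ↥(NN X) => DD (up T)) T) _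

end Cfsg.Agent.Lib.Helper29
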