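import Mathlib
import Cfsg.Agent.Lib.Helper29.HKTrans

set_option autoImplicit false
set_option linter.unusedSectionVars false

namespace Cfsg.Agent.Lib.Helper29

open scoped BigOperators
open Cfsg Cfsg.Agent.Lib.Helper80 Cfsg.Agent.Lib.Helper81 Cfsg.Agent.Lib.Helper20

namespace Kn

open GA

variable {p : ℕ} [Fact p.Prime] {M : Ideal AlgInt} (hM : IsPModular p M)
  {G : Type*} [Group G] [Fintype G]

include hM in
/-- **The Harris–Knörr correspondence.** -/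
theorem harris_knorr (N : Subgroup G) [hN : N.Normal] [Fintype N] (Q : Subgroup G)
    (hQ : IsPGroup p Q) (hQN : Q ≤ N) [Fintype ↥(Subgroup.normalizer (Q : Set G) ⊓ N)]
    (d : Set (IrrCharacter N)) (hd : IsPBlock M d)
    (hdQ : IsDefectGroup p M d (Q.subgroupOf N))
    (e : Set (IrrCharacter ↥(Subgroup.normalizer (Q : Set G) ⊓ N))) (he : IsPBlock M e)
    (heQ : IsDefectGroup p M e (Q.subgroupOf (Subgroup.normalizer (Q : Set G) ⊓ N)))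
    (hed : IsInducedBlockIn M N (Subgroup.normalizer (Q : Set G) ⊓ N) e d) :
    (∀ c : Set (IrrCharacter ↥(Subgroup.normalizer (Q : Set G))), IsPBlock M c →
      (∃ ψ ∈ c, ∃ ξ ∈ e, classInner (fun l : ↥(Subgroup.normalizer (Q : Set G) ⊓ N) =>
        (ψ : ↥(Subgroup.normalizer (Q : Set G)) → ℂ) (Subgroup.inclusion inf_le_left l))
        (ξ : ↥(Subgroup.normalizer (Q : Set G) ⊓ N) → ℂ) ≠ 0) →
      ∃! B : Set (IrrCharacter G), IsInducedBlock M (Subgroup.normalizer (Q : Set G)) c B ∧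
        (∃ χ ∈ B, ∃ θ ∈ d, classInner (fun n : N => (χ : G → ℂ) n) (θ : N → ℂ) ≠ 0)) ∧
    (∀ B : Set (IrrCharacter G), IsPBlock M B →
      (∃ χ ∈ B, ∃ θ ∈ d, classInner (fun n : N => (χ : G → ℂ) n) (θ : N → ℂ) ≠ 0) →
      ∃! c : Set (IrrCharacter ↥(Subgroup.normalizer (Q : Set G))), (IsPBlock M c ∧
        ∃ ψ ∈ c, ∃ ξ ∈ e, classInner (fun l : ↥(Subgroup.normalizer (Q : Set G) ⊓ N) =>
          (ψ : ↥(Subgroup.normalizer (Q : Set G)) → ℂ) (Subgroup.inclusion inf_le_left l))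
          (ξ : ↥(Subgroup.normalizer (Q : Set G) ⊓ N) → ℂ) ≠ 0) ∧
        IsInducedBlock M (Subgroup.normalizer (Q : Set G)) c B) := by
  have hQH : Q ≤ Nn Q := Subgroup.le_normalizer
  have hQL : Q ≤ Nn Q ⊓ N := le_inf hQH hQN
  have hd1 : IsBlk N (bl hM N d) := isBlk_bl hM N hd
  have hd2 : IsDef p N (bl hM N d) Q := (isDefectGroup_sub_iff hM N hd hQN).1 hdQ
  have he1 : IsBlk (Nn Q ⊓ N) (bl hM (Nn Q ⊓ N) e) := isBlk_bl hM _ he
  have he2 : IsDef p (Nn Q ⊓ N) (bl hM (Nn Q ⊓ N) e) Q := (isDefectGroup_sub_iff hM _ he hQL).1 heQ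
  have hbr : br Q (bl hM N d) * bl hM (Nn Q ⊓ N) e = bl hM (Nn Q ⊓ N) e :=
    br_mul_bl_of_inducedIn hM hQ hQL inf_le_right
      (fun g hg => ⟨Cn_le_Nn Q hg.1, hg.2⟩) inf_le_left hed
  have hde : br Q (bl hM N d) = bl hM (Nn Q ⊓ N) e :=
    br_eq_of_mul_ne_zero hd1 hd2 he1 (by rw [hbr]; exact he1.ne_zero)
  have hind : ∀ {c : Set (IrrCharacter (Nn Q))} {B : Set (IrrCharacter G)}, IsPBlock M c →
      IsPBlock M B → (IsInducedBlock M (Nn Q) c B ↔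
        br Q (blkR hM B) * bl hM (Nn Q) c = bl hM (Nn Q) c) :=
    fun hc hB => isInducedBlock_iff hM hQ hQH (Cn_le_Nn Q) le_rfl hc hB
  have hcovG : ∀ {B : Set (IrrCharacter G)}, IsPBlock M B →
      ((∃ χ ∈ B, ∃ θ ∈ d, classInner (fun n : N => (χ : G → ℂ) n) (θ : N → ℂ) ≠ 0) ↔
        blkR hM B * bl hM N d ≠ 0) :=
    fun hB => covers_iff_mul_ne_zero hM hN hB hd
  have hcovH : ∀ {c : Set (IrrCharacter (Nn Q))}, IsPBlock M c →
      ((∃ ψ ∈ c, ∃ ξ ∈ e, classInner (fun l : ↥(Nn Q ⊓ N) =>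
        (ψ : ↥(Nn Q) → ℂ) (Subgroup.inclusion inf_le_left l)) (ξ : ↥(Nn Q ⊓ N) → ℂ) ≠ 0) ↔
        bl hM (Nn Q) c * bl hM (Nn Q ⊓ N) e ≠ 0) :=
    fun hc => coversRel_iff hM inf_le_left (Nn_le_Nn_inf_normal N Q) hc he
  constructor
  · intro c hc hcov
    have hce := (hcovH hc).1 hcov
    have hc1 := isBlk_bl hM (Nn Q) hc
    obtain ⟨B, hB⟩ := Cfsg.Agent.S0919.result p M hM Q (Nn Q) hQ hQH (Cn_le_Nn Q) le_rfl c hc
    have hEc := (hind hc hB.2.1).1 hB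
    refine ⟨B, ⟨hB, (hcovG hB.2.1).2
      (hk_covers hd2 hd1 hde hc1 hce (isBlk_blkR hM hB.2.1) hEc)⟩, ?_⟩
    rintro B' ⟨hB', _⟩
    have hEc' := (hind hc hB'.2.1).1 hB'
    rcases (isBlk_blkR hM hB'.2.1).eq_or_orth (isBlk_blkR hM hB.2.1) with h1 | h1
    · exact blkR_injective hM hB'.2.1 hB.2.1 h1
    · exfalso
      apply hc1.ne_zero
      calc bl hM (Nn Q) c = br Q (blkR hM B') * (br Q (blkR hM B) * bl hM (Nn Q) c) := by
            rw [hEc, hEc']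
        _ = 0 := by
            rw [← mul_assoc, ← br_mul hQ ((blkR_inZ hM B').2.mono le_top)
              ((blkR_inZ hM B).2.mono le_top), h1, br_zero, zero_mul]
  · intro B hB hcov
    have hEd := (hcovG hB).1 hcov
    obtain ⟨c', hc', hce', hEc'⟩ := hk_exists hd2 hd1 hde (isBlk_blkR hM hB) hEd
    obtain ⟨c, hc, rfl⟩ := exists_block_of_isBlk_sub hM (Nn Q) hc'
    refine ⟨c, ⟨⟨hc, (hcovH hc).2 hce'⟩, (hind hc hB).2 hEc'⟩, ?_⟩
    rintro c₂ ⟨⟨hc₂, hcov₂⟩, hind₂⟩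
    apply bl_injective hM (Nn Q) hc₂ hc
    exact hk_unique he1 he2 (isBlk_bl hM (Nn Q) hc₂) ((hcovH hc₂).1 hcov₂) hc' hce'
      (isBlk_blkR hM hB) ((hind hc₂ hB).1 hind₂) hEc'

end Kn

end Cfsg.Agent.Lib.Helper29
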