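import Mathlib
import Cfsg.Agent.Lib.Helper29.HKTrans

set_option autoImplicit false
set_option linter.unusedSectionVars false

namespace Cfsg.Agent.Lib.Helper29

open scoped BigOperators
open Cfsg Cfsg.Agent.Lib.Helper80 Cfsg.Agent.Lib.Helper81 Cfsg.Agent.Lib.Helper20

namespace Kn

open GA

section alg
variable {k : Type*} {G : Type*} [Field k] [Group G] [Fintype G]
variable {p : ℕ} [Fact p.Prime] [CharP k p]

/-- a defect group `P` of a block `E` of `G` stabilises a block `c` of the normal subgroup `N`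
covered by `E` with `Br_P(E c) ≠ 0` -/
theorem exists_stable_covered {N P : Subgroup G} [N.Normal] {E : GA k G} (hE : IsBlk ⊤ E)
    (hP : IsPGroup p P) (hbr : br P E ≠ 0) :
    ∃ c, IsBlk N c ∧ FixBy P c ∧ br P (E * c) ≠ 0 := by
  classical
  have hex : ∃ g, br P E g ≠ 0 := by
    by_contra hcon
    push Not at hcon
    exact hbr (GA.ext hcon)
  obtain ⟨g, hg⟩ := hex
  have hgC : g ∈ Cn P := by
    by_contra hn
    exact hg (br_apply_not_mem _ hn)
  rw [br_apply_mem _ hgC] at hg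
  have h1 : E g = ∑ b ∈ blks k N, (E * b) g := by
    rw [← GA.sum_apply, ← Finset.mul_sum, sum_blks, mul_one]
  have h2 := sum_eq_sum_fixed (p := p) (S := P) (Y := GA k G) (k := k) hP
    (fun u b => cj (u : G) b) (fun b => one_cj b) (fun a b y => by
      show cj ((a : G) * (b : G)) y = cj (a : G) (cj (b : G) y)
      rw [cj_cj]) (blks k N)
    (fun a b hb => mem_blks.2 (isBlk_cj_normal (mem_blks.1 hb) a))
    (fun b => (E * b) g) (fun a b _ => by
      show (E * cj (a : G) b) g = (E * b) g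
      have e1 : E * cj (a : G) b = cj (a : G) (E * b) := by
        rw [cj_mul, hE.inZ.2 _ (Subgroup.mem_top _)]
      rw [e1, cj_apply]
      congr 1
      have := mem_Cn.1 hgC a a.2
      rw [mul_assoc, ← this, inv_mul_cancel_left])
  rw [← h1] at h2
  have h3 : ∃ b ∈ (blks k N).filter (fun y => ∀ a : P, cj (a : G) y = y), (E * b) g ≠ 0 := by
    by_contra hcon
    push Not at hcon
    apply hg
    rw [h2]
    exact Finset.sum_eq_zero hcon
  obtain ⟨c, hc, hcg⟩ := h3
  obtain ⟨hc1, hc2⟩ := Finset.mem_filter.1 hc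
  refine ⟨c, mem_blks.1 hc1, fun x hx => hc2 ⟨x, hx⟩, fun h0 => hcg ?_⟩
  have h4 := br_apply_mem (E * c) hgC
  rw [h0, GA.zero_apply] at h4
  exact h4.symm

/-- refinement of Knörr's theorem: for a *given* defect group `P` of `E` there is a `P`-stable
block of `N` covered by `E` with defect group `P ⊓ N` -/
theorem knorr_stable {N P : Subgroup G} [N.Normal] {E : GA k G} (hE : IsBlk ⊤ E)
    (hP : IsDef p ⊤ E P) :
    ∃ c, IsBlk N c ∧ FixBy P c ∧ E * c ≠ 0 ∧ IsDef p N c (P ⊓ N) := by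
  obtain ⟨c, hc, hfix, hbr⟩ := exists_stable_covered (N := N) hE hP.pgroup hP.br_ne
  have hEc : E * c ≠ 0 := fun h => hbr (by rw [h, br_zero])
  refine ⟨c, hc, hfix, hEc, ?_⟩
  rw [br_mul hP.pgroup (hE.inZ.2.mono le_top) hfix] at hbr
  have hbrc : br P c ≠ 0 := fun h => hbr (by rw [h, mul_zero])
  have hbrc' : br (P ⊓ N) c ≠ 0 := br_ne_zero_of_le inf_le_left hbrc
  obtain ⟨Q0, hQ0⟩ := hc.exists_isDef (p := p)
  obtain ⟨P', hP', hPQ⟩ := knorr hc hE hQ0 hEc
  obtain ⟨x, _, hx⟩ := hP.exists_conj hP'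
  have hcard : Nat.card Q0 = Nat.card (P ⊓ N : Subgroup G) := by
    have e1 : cS x P ⊓ N = cS x (P ⊓ N) := by rw [cS_inf, cS_normal N x]
    rw [← hPQ, hx, e1, card_cS]
  obtain ⟨n, hn, hle⟩ := hQ0.zd.le_conj_of_br_ne inf_le_right (hP.pgroup.to_le inf_le_left) hbrc'
  have heq : P ⊓ N = cS n Q0 := by
    apply eq_of_le_of_card_le hle
    rw [card_cS, hcard]
  rw [heq]
  exact hQ0.conj hc.inZ.2 hn

end alg

variable {p : ℕ} [Fact p.Prime] {M : Ideal AlgInt} (hM : IsPModular p M)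
  {G : Type*} [Group G] [Fintype G]

include hM in
theorem knorr_stable_blocks (N : Subgroup G) [hN : N.Normal] [Fintype N]
    (B : Set (IrrCharacter G)) (hB : IsPBlock M B) (P : Subgroup G)
    (hP : IsDefectGroup p M B P) :
    ∃ c : Set (IrrCharacter N), IsPBlock M c ∧ (∀ x ∈ P, StabilizesBlock N c x) ∧
      (∃ χ ∈ B, ∃ θ ∈ c, classInner (fun n : N => (χ : G → ℂ) n) (θ : N → ℂ) ≠ 0) ∧
      IsDefectGroup p M c ((P ⊓ N).subgroupOf N) := by
  obtain ⟨c', hc', hfix, hEc, hdef⟩ := knorr_stable (N := N) (isBlk_blkR hM hB)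
    ((isDefectGroup_iff_isDef hM hB).1 hP)
  obtain ⟨c, hc, rfl⟩ := exists_block_of_isBlk_sub hM N hc'
  refine ⟨c, hc, ?_, covers_of_mul_ne_zero hM hN hB hc hEc,
    (isDefectGroup_sub_iff hM N hc inf_le_right).2 hdef⟩
  intro x hx
  have hxN : x ∈ Subgroup.normalizer (N : Set G) := by
    rw [Subgroup.normalizer_eq_top]; exact Subgroup.mem_top x
  exact (stabilizesBlock_iff hM N hc hxN).2 (hfix x hx)

end Kn

end Cfsg.Agent.Lib.Helper29
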