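import Mathlib
import Cfsg.Agent.Lib.Helper29.KnorrStable
import Cfsg.Agent.Lib.Helper80.GAPIndexT

set_option autoImplicit false
set_option linter.unusedSectionVars false

namespace Cfsg.Agent.Lib.Helper29

open scoped BigOperators
open Cfsg Cfsg.Agent.Lib.Helper80 Cfsg.Agent.Lib.Helper81 Cfsg.Agent.Lib.Helper20

namespace Kn

open GA

section grp
variable {G : Type*} [Group G] [Finite G] {p : ℕ} [Fact p.Prime]

/-- a `p`-group `S` normalising the `p'`-group `N` and stabilising the `N`-class of `g` centralises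
an element of that class -/
theorem exists_fixed_conj {N S : Subgroup G} (hN : (Nat.card N).Coprime p) (hS : IsPGroup p S)
    (hSN : S ≤ Nn N) {g : G} (hstab : ∀ s ∈ S, ∃ n ∈ N, s * g * s⁻¹ = n * g * n⁻¹) :
    ∃ n ∈ N, n * g * n⁻¹ ∈ Cn S := by
  classical
  let actN : MulAction N G :=
    MulAction.compHom G ((MulAut.conj : G →* MulAut G).comp N.subtype)
  have hsm : ∀ (n : N) (x : G), n • x = (n : G) * x * (n : G)⁻¹ := fun n x => rfl
  have hcard : Nat.card (MulAction.orbit N g) ∣ Nat.card N := by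
    have h1 := MulAction.index_stabilizer N g
    rw [← Nat.card_coe_set_eq] at h1
    rw [← h1]
    exact Subgroup.index_dvd_card _
  have hmem : ∀ (s : S) (x : MulAction.orbit N g),
      (s : G) * (x : G) * (s : G)⁻¹ ∈ MulAction.orbit N g := by
    rintro s ⟨_, n, rfl⟩
    obtain ⟨m, hm, hsm'⟩ := hstab s s.2
    have hn' : (s : G) * (n : G) * (s : G)⁻¹ ∈ N :=
      (Subgroup.mem_normalizer_iff.1 (hSN s.2) n).1 n.2
    refine ⟨⟨(s : G) * (n : G) * (s : G)⁻¹, hn'⟩ * ⟨m, hm⟩, ?_⟩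
    show ((s : G) * (n : G) * (s : G)⁻¹ * m) * g * ((s : G) * (n : G) * (s : G)⁻¹ * m)⁻¹ =
      (s : G) * ((n : G) * g * (n : G)⁻¹) * (s : G)⁻¹
    have : m * g * m⁻¹ = (s : G) * g * (s : G)⁻¹ := hsm'.symm
    calc ((s : G) * (n : G) * (s : G)⁻¹ * m) * g * ((s : G) * (n : G) * (s : G)⁻¹ * m)⁻¹
        = (s : G) * (n : G) * (s : G)⁻¹ * (m * g * m⁻¹) * ((s : G) * (n : G)⁻¹ * (s : G)⁻¹) := by
          group
      _ = (s : G) * ((n : G) * g * (n : G)⁻¹) * (s : G)⁻¹ := by rw [this]; group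
  let actS : MulAction S (MulAction.orbit N g) :=
    { smul := fun s x => ⟨(s : G) * (x : G) * (s : G)⁻¹, hmem s x⟩
      one_smul := fun x => Subtype.ext (by
        show ((1 : S) : G) * (x : G) * ((1 : S) : G)⁻¹ = x
        simp)
      mul_smul := fun a b x => Subtype.ext (by
        show ((a * b : S) : G) * (x : G) * ((a * b : S) : G)⁻¹ =
          (a : G) * ((b : G) * (x : G) * (b : G)⁻¹) * (a : G)⁻¹
        simp [mul_assoc]) }
  have hnd : ¬ p ∣ Nat.card (MulAction.orbit N g) := by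
    intro h
    have h2 : p ∣ Nat.card N := h.trans hcard
    have := Nat.Coprime.eq_one_of_dvd hN.symm h2
    exact (Fact.out : p.Prime).ne_one this
  obtain ⟨x, hx⟩ := hS.nonempty_fixed_point_of_prime_not_dvd_card (MulAction.orbit N g) hnd
  obtain ⟨n, hn⟩ := x.2
  refine ⟨n, n.2, ?_⟩
  show _ ∈ Subgroup.centralizer (S : Set G)
  rw [Subgroup.mem_centralizer_iff]
  intro u hu
  have h1 := congrArg Subtype.val (hx ⟨u, hu⟩)
  have h2 : u * (x : G) * u⁻¹ = x := h1
  have h3 : (n : G) * g * (n : G)⁻¹ = x := hn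
  rw [h3]
  calc u * (x : G) = u * (x : G) * u⁻¹ * u := by group
    _ = x * u := by rw [h2]

/-- `S ≤ S' ≤ S K` with `S'` a `p`-group and `K` a normal `p'`-group forces `S' = S` -/
theorem le_of_le_sup_coprime {K S S' : Subgroup G} [K.Normal] (hK : (Nat.card K).Coprime p)
    (hS' : IsPGroup p S') (hSS' : S ≤ S') (hle : S' ≤ S ⊔ K) : S' ≤ S := by
  intro s hs
  have h1 : s ∈ ((S ⊔ K : Subgroup G) : Set G) := hle hs
  rw [Subgroup.mul_normal] at h1
  obtain ⟨q, hq, k, hk, rfl⟩ := Set.mem_mul.1 h1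
  have hkS : k ∈ S' := by
    have := S'.mul_mem (S'.inv_mem (hSS' hq)) hs
    simpa using this
  have hk1 : k = 1 := by
    obtain ⟨a, ha⟩ := hS' ⟨k, hkS⟩
    have ha' : k ^ p ^ a = 1 := congrArg Subtype.val ha
    have hb' : k ^ Nat.card K = 1 := by
      have := pow_card_eq_one' (x := (⟨k, hk⟩ : K))
      exact congrArg Subtype.val this
    have hcop : Nat.Coprime (p ^ a) (Nat.card K) := (hK.symm).pow_left a
    have := pow_gcd_eq_one.2 ⟨ha', hb'⟩
    rwa [hcop, pow_one] at this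
  rw [hk1, mul_one]
  exact hq

end grp

section alg
variable {k : Type*} {G : Type*} [Field k] [Group G] [Fintype G]
variable {p : ℕ} [Fact p.Prime] [CharP k p]

/-- the Brauer map at a `p`-group stabilising a block of a `p'`-group does not kill it -/
theorem br_ne_zero_of_coprime {N S : Subgroup G} {b : GA k G} (hN : (Nat.card N).Coprime p)
    (hb : IsBlk N b) (hSN : S ≤ Nn N) (hS : IsPGroup p S) (hfix : FixBy S b)
    (hsp : ∀ z, InZ N z → ∃ c : k, IsNilpotent (z * b - c • b)) : br S b ≠ 0 := by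
  obtain ⟨g, hg, hstab⟩ := hb.exists_stable_class hSN hS hfix hsp
  obtain ⟨n, hn, hC⟩ := exists_fixed_conj hN hS hSN (g := g) (fun s hs => by
    have h1 := hstab s hs
    rw [cj_cls (hSN hs)] at h1
    have h2 : (cls N g : GA k G) (s * g * s⁻¹) ≠ 0 := by
      rw [← h1, cls_self]; exact one_ne_zero
    exact cls_apply_ne_zero h2)
  intro h0
  apply hg
  have h1 : br S b (n * g * n⁻¹) = b (n * g * n⁻¹) := br_apply_mem _ hC
  rw [h0, hb.inZ.2.apply hn] at h1
  exact h1.symm

/-- a maximal `p`-subgroup of `H` is a defect group of an `H`-stable block of a normal `p'`-subgroup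
which is a block of `H` -/
theorem isDef_of_coprime {K H S : Subgroup G} {b : GA k G} (hK : (Nat.card K).Coprime p)
    (hb : IsBlk K b) (hHK : H ≤ Nn K) (hbH : IsBlk H b)
    (hsp : ∀ z, InZ K z → ∃ c : k, IsNilpotent (z * b - c • b))
    (hSH : S ≤ H) (hS : IsPGroup p S)
    (hmax : ∀ S' : Subgroup G, IsPGroup p S' → S' ≤ H → S ≤ S' → S' ≤ S) : IsDef p H b S := by
  obtain ⟨D, hD⟩ := hbH.exists_isDef (p := p)
  have h1 : br S b ≠ 0 :=
    br_ne_zero_of_coprime hK hb (hSH.trans hHK) hS (hbH.inZ.2.mono hSH) hsp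
  obtain ⟨x, hx, hle⟩ := hD.zd.le_conj_of_br_ne hSH hS h1
  have h2 := hD.conj hbH.inZ.2 hx
  have h3 : cS x D = S := le_antisymm (hmax _ h2.pgroup h2.le hle) hle
  rwa [h3] at h2

/-- relative version of `br_ne_zero_of_idem` -/
theorem br_ne_zero_of_idem_rel {H L Q : Subgroup G} (hLH : L ≤ H) (hHL : H ≤ Nn L)
    {b f : GA k G} (hb : IsBlk L b) (hfH : SuppOn H f) (hfL : FixBy L f) (hff : f * f = f)
    (hfb : f * b = f) (hQL : Q ≤ L) (hQ : IsPGroup p Q) (hbr : br Q b ≠ 0) (hf0 : f ≠ 0) :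
    br Q f ≠ 0 := by
  have _ : Fintype H := Fintype.ofFinite H
  have hbH : emb H (rst H b) = b := emb_rst H (hb.inZ.1.mono hLH)
  have hfH' : emb H (rst H f) = f := emb_rst H hfH
  have hQH : Q ≤ H := hQL.trans hLH
  have _ : (L.subgroupOf H).Normal := (Subgroup.normal_subgroupOf_iff_le_normalizer hLH).2 hHL
  have hb' : IsBlk (L.subgroupOf H) (rst H b) := by
    rw [← isBlk_up_iff H, up_subgroupOf H hLH, hbH]; exact hb
  have hfL' : FixBy (L.subgroupOf H) (rst H f) := by
    rw [← fixBy_emb_iff H, up_subgroupOf H hLH, hfH']; exact hfL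
  have hff' : rst H f * rst H f = rst H f := by
    apply emb_injective H
    rw [emb_mul, hfH', hff]
  have hfb' : rst H f * rst H b = rst H f := by
    apply emb_injective H
    rw [emb_mul, hfH', hbH, hfb]
  have hbr' : br (Q.subgroupOf H) (rst H b) ≠ 0 := by
    intro h0
    apply hbr
    have := emb_br H (Q.subgroupOf H) (rst H b)
    rw [h0, emb_zero, up_subgroupOf H hQH, hbH] at this
    exact this.symm
  have hf0' : rst H f ≠ 0 := by
    intro h0
    apply hf0
    rw [← hfH', h0, emb_zero]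
  have key : br (Q.subgroupOf H) (rst H f) ≠ 0 := br_ne_zero_of_idem hb' hfL' hff' hfb'
    (by
      intro x hx
      exact Subgroup.mem_subgroupOf.2 (hQL (Subgroup.mem_subgroupOf.1 hx)))
    (hQ.comap_of_injective H.subtype H.subtype_injective) hbr' hf0'
  intro h0
  apply key
  apply emb_injective H
  rw [emb_br, up_subgroupOf H hQH, hfH', h0, emb_zero]

/-- **Primitivity criterion**: an `H`-stable block `b` of `L ⊴ H` with defect group `Q` such that
the `p`-regular elements of `C_H(Q)` lie in `L` is a block of `H`. -/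
theorem isBlk_of_regular_centralizer (hos : Osima p k G) {H L Q : Subgroup G} (hLH : L ≤ H)
    (hHL : H ≤ Nn L) {b : GA k G} (hb : IsBlk L b) (hfix : FixBy H b) (hQ : IsDef p L b Q)
    (hreg : ∀ x ∈ H, x ∈ Cn Q → ¬ p ∣ orderOf x → x ∈ L) : IsBlk H b := by
  have hbZ : InZ H b := ⟨hb.inZ.1.mono hLH, hfix⟩
  have hQH : Q ≤ H := hQ.le.trans hLH
  obtain ⟨hβ, -⟩ := isBlk_br hb hQ
  -- the Brauer image of a nonzero central idempotent below `b` is `Br_Q(b)`
  have key : ∀ f : GA k G, InZ H f → f * f = f → f * b = f → f ≠ 0 → br Q f = br Q b := by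
    intro f hf hff hfb hf0
    have h1 : br Q f ≠ 0 :=
      br_ne_zero_of_idem_rel hLH hHL hb hf.1 (hf.2.mono hLH) hff hfb hQ.le hQ.pgroup hQ.br_ne hf0
    have h2 : InZ (H ⊓ Nn Q) (br Q f) := inZ_br_normalizer hf
    have h3 : br Q f * br Q f = br Q f := br_idem hQ.pgroup (hf.2.mono hQH) hff
    have h4 : InZ (L ⊓ Nn Q) (br Q f) := by
      refine ⟨fun g hg => ?_, h2.2.mono (inf_le_inf_right _ hLH)⟩
      by_cases hgH : g ∈ H ⊓ Nn Q
      · by_cases hgC : g ∈ Cn Q
        · apply hos.idem h2 h3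
          by_contra hn
          exact hg ⟨hreg g hgH.1 hgC hn, hgH.2⟩
        · exact br_apply_not_mem _ hgC
      · exact h2.1 g hgH
    have h5 : br Q f * br Q b = br Q f := by
      rw [← br_mul hQ.pgroup (hf.2.mono hQH) (hfix.mono hQH), hfb]
    rcases hβ.prim _ h4 h3 with h | h
    · exact absurd (h5.symm.trans h) h1
    · exact h5.symm.trans h
  refine ⟨hbZ, hb.idem, hb.ne_zero, ?_⟩
  intro z hz hzz
  by_contra hcon
  push Not at hcon
  obtain ⟨hc1, hc2⟩ := hcon
  have hzb : z * b = b * z := hz.comm hbZ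
  have e1 : (z * b) * (z * b) = z * b := by
    calc (z * b) * (z * b) = z * (b * z) * b := by simp only [mul_assoc]
      _ = z * (z * b) * b := by rw [hzb]
      _ = (z * z) * (b * b) := by simp only [mul_assoc]
      _ = z * b := by rw [hzz, hb.idem]
  have e2 : (z * b) * b = z * b := by rw [mul_assoc, hb.idem]
  have e3 : b * (z * b) = z * b := by rw [← mul_assoc, ← hzb, mul_assoc, hb.idem]
  have k1 := key (z * b) (hz.mul hbZ) e1 e2 hc1
  have k2 := key (b - z * b) (hbZ.sub (hz.mul hbZ))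
    (by rw [sub_mul, mul_sub, mul_sub, hb.idem, e1, e2, e3]; abel)
    (by rw [sub_mul, hb.idem, e2])
    (by intro h; exact hc2 (sub_eq_zero.1 h).symm)
  rw [br_sub, k1, sub_self] at k2
  exact hQ.br_ne k2.symm

end alg

end Kn

end Cfsg.Agent.Lib.Helper29
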