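import Mathlib
import Cfsg.Agent.Lib.Helper29.PConstr1
import Cfsg.Agent.Lib.Helper11.AxB
import Cfsg.Agent.Lib.Helper14.PConstrained
import Cfsg.Agent.S3800

set_option autoImplicit false
set_option linter.unusedSectionVars false

namespace Cfsg.Agent.Lib.Helper29

open scoped BigOperators
open Cfsg Cfsg.Agent.Lib.Helper80 Cfsg.Agent.Lib.Helper81 Cfsg.Agent.Lib.Helper20

namespace Kn

open GA

section grp
variable {G : Type*} [Group G] [Finite G] {p : ℕ} [Fact p.Prime]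

theorem mem_of_regular_of_map {K X : Subgroup G} [K.Normal]
    (hX : IsPGroup p (X.map (QuotientGroup.mk' K))) {x : G} (hx : x ∈ X)
    (ho : ¬ p ∣ orderOf x) : x ∈ K := by
  obtain ⟨a, ha⟩ := hX ⟨QuotientGroup.mk' K x, Subgroup.mem_map_of_mem _ hx⟩
  have ha' : (QuotientGroup.mk' K x) ^ p ^ a = 1 := congrArg Subtype.val ha
  have h1 : orderOf (QuotientGroup.mk' K x) ∣ p ^ a := orderOf_dvd_of_pow_eq_one ha'
  have h2 : orderOf (QuotientGroup.mk' K x) ∣ orderOf x := orderOf_map_dvd _ x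
  have hcop : Nat.Coprime (p ^ a) (orderOf x) :=
    Nat.Coprime.pow_left a ((Nat.Prime.coprime_iff_not_dvd Fact.out).2 ho)
  have h3 : orderOf (QuotientGroup.mk' K x) = 1 := Nat.eq_one_of_dvd_coprimes hcop h1 h2
  exact (QuotientGroup.eq_one_iff x).1 (orderOf_eq_one_iff.1 h3)

theorem mem_of_mk_eq {K L : Subgroup G} [K.Normal] (hKL : K ≤ L) {a b : G} (ha : a ∈ L)
    (h : QuotientGroup.mk' K a = QuotientGroup.mk' K b) : b ∈ L := by
  have h1 : a⁻¹ * b ∈ K := by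
    rw [← QuotientGroup.eq_one_iff]
    show QuotientGroup.mk' K (a⁻¹ * b) = 1
    rw [map_mul, map_inv, h, inv_mul_cancel]
  have := L.mul_mem ha (hKL h1)
  simpa using this

/-- `p`-constrained groups: a `p`-regular element centralising the `p`-subgroup `R` and a Sylow
`p`-subgroup of `C_L(R)`, `L = O_{p',p}`, lies in `K = O_{p'}`. -/
theorem regular_centralizer_mem {K L Q R Q₀ : Subgroup G} [K.Normal] [L.Normal]
    (hK : (Nat.card K).Coprime p) (hLp : IsPGroup p (L.map (QuotientGroup.mk' K))) (hKL : K ≤ L)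
    (hQ : IsPGroup p Q) (hQL : Q ≤ L) (hCQ : Cn Q ≤ L) (hR : IsPGroup p R)
    (hQ₀ : L ⊓ Cn R ≤ Q₀ ⊔ K) {x : G} (hxR : x ∈ Cn R) (hxQ : x ∈ Cn Q₀)
    (ho : ¬ p ∣ orderOf x) : x ∈ K := by
  have hcent := fun (P : Subgroup G) (hP : IsPGroup p P) => (Cfsg.Agent.S3800.result K hK P hP).2
  obtain ⟨π, hπ⟩ : ∃ π, π = QuotientGroup.mk' K := ⟨_, rfl⟩
  rw [← hπ] at hLp
  have hxR' : ∀ u ∈ R, u * x = x * u := Subgroup.mem_centralizer_iff.1 hxR
  have hxQ' : ∀ u ∈ Q₀, u * x = x * u := Subgroup.mem_centralizer_iff.1 hxQ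
  have hD : (Nat.card (Subgroup.zpowers (π x))).Coprime p := by
    rw [Nat.card_zpowers]
    exact Nat.Coprime.coprime_dvd_left (orderOf_map_dvd π x)
      ((Nat.Prime.coprime_iff_not_dvd Fact.out).2 ho).symm
  have hDT : Subgroup.zpowers (π x) ≤ Subgroup.centralizer ((R.map π : Subgroup _) : Set _) := by
    rw [Subgroup.zpowers_le, Subgroup.mem_centralizer_iff]
    rintro _ ⟨r, hr, rfl⟩
    rw [← map_mul, ← map_mul, hxR' r hr]
  have hLn : (L.map π).Normal := by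
    rw [hπ]
    exact Subgroup.Normal.map inferInstance _ (QuotientGroup.mk'_surjective K)
  have hnorm : ∀ X : Subgroup (G ⧸ K), X ≤ Subgroup.normalizer ((L.map π : Subgroup _) : Set _) := by
    intro X
    rw [Subgroup.normalizer_eq_top]; exact le_top
  have h4 : Subgroup.zpowers (π x) ≤ Subgroup.centralizer
      ((L.map π ⊓ Subgroup.centralizer ((R.map π : Subgroup _) : Set _) : Subgroup _) : Set _) := by
    rw [Subgroup.zpowers_le, Subgroup.mem_centralizer_iff]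
    rintro y ⟨hyL, hyC⟩
    rw [SetLike.mem_coe, hπ, hcent R hR, ← hπ] at hyC
    obtain ⟨c, hc, rfl⟩ := hyC
    obtain ⟨l, hl, hlc⟩ := hyL
    have hcL : c ∈ L := mem_of_mk_eq hKL hl (by rw [← hπ]; exact hlc)
    have h5 : c ∈ ((Q₀ ⊔ K : Subgroup G) : Set G) := hQ₀ ⟨hcL, hc⟩
    rw [Subgroup.mul_normal] at h5
    obtain ⟨q, hq, k, hk, rfl⟩ := Set.mem_mul.1 h5
    have h6 : π (q * k) = π q := by
      rw [map_mul, hπ]
      have : QuotientGroup.mk' K k = 1 := (QuotientGroup.eq_one_iff k).2 hk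
      rw [this, mul_one]
    rw [h6, ← map_mul, ← map_mul, hxQ' q hq]
  have h5 := Cfsg.Agent.Lib.Helper11.thompson_AxB (R.map π) (Subgroup.zpowers (π x)) (hR.map π) hD
    hDT (L.map π) hLp (hnorm _) (hnorm _) h4
  have h6 : π x ∈ Subgroup.centralizer ((Q.map π : Subgroup _) : Set _) :=
    Subgroup.centralizer_le (Subgroup.map_mono hQL) (h5 (Subgroup.mem_zpowers _))
  rw [hπ, hcent Q hQ] at h6
  obtain ⟨c, hc, hcx⟩ := h6
  have hxL : x ∈ L := mem_of_mk_eq hKL (hCQ hc) hcx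
  rw [hπ] at hLp
  exact mem_of_regular_of_map hLp hxL ho

/-- a subgroup `X` with `XK/K` a `p`-group is `S K` for a `p`-subgroup `S` -/
theorem exists_pgroup_sup {K X : Subgroup G} [K.Normal]
    (hX : IsPGroup p (X.map (QuotientGroup.mk' K))) :
    ∃ S : Subgroup G, S ≤ X ∧ IsPGroup p S ∧ X ≤ S ⊔ K := by
  obtain ⟨P⟩ : Nonempty (Sylow p X) := inferInstance
  obtain ⟨a, ha⟩ := IsPGroup.iff_card.1 hX
  have h1 : K.relIndex X = p ^ a := by
    rw [← ha]
    have := Subgroup.relIndex_ker (QuotientGroup.mk' K) (K := X)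
    rwa [QuotientGroup.ker_mk'] at this
  refine ⟨(P : Subgroup X).map X.subtype, Subgroup.map_subtype_le _, P.2.map _, ?_⟩
  exact Cfsg.Agent.Lib.Helper14.le_sylow_sup_of_relIndex X K h1 P

theorem isPGroup_map_sup {K R : Subgroup G} [K.Normal] (hR : IsPGroup p R) :
    IsPGroup p ((K ⊔ R).map (QuotientGroup.mk' K)) := by
  have : (K ⊔ R).map (QuotientGroup.mk' K) = R.map (QuotientGroup.mk' K) := by
    rw [Subgroup.map_sup]
    have h1 : K.map (QuotientGroup.mk' K) = ⊥ := by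
      rw [eq_bot_iff]
      rintro _ ⟨k, hk, rfl⟩
      exact (QuotientGroup.eq_one_iff k).2 hk
    rw [h1, bot_sup_eq]
  rw [this]
  exact hR.map _

theorem inf_eq_bot_of_coprime {K R : Subgroup G} (hK : (Nat.card K).Coprime p)
    (hR : IsPGroup p R) {x : G} (hxK : x ∈ K) (hxR : x ∈ R) : x = 1 := by
  obtain ⟨a, ha⟩ := hR ⟨x, hxR⟩
  have ha' : x ^ p ^ a = 1 := congrArg Subtype.val ha
  have hb' : x ^ Nat.card K = 1 := by
    have := pow_card_eq_one' (x := (⟨x, hxK⟩ : K))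
    exact congrArg Subtype.val this
  have hcop : Nat.Coprime (p ^ a) (Nat.card K) := (hK.symm).pow_left a
  have := pow_gcd_eq_one.2 ⟨ha', hb'⟩
  rwa [hcop, pow_one] at this

/-- `N_{KR}(R) = C_K(R) R` -/
theorem exists_mul_of_mem_normalizer {K R : Subgroup G} [K.Normal] (hK : (Nat.card K).Coprime p)
    (hR : IsPGroup p R) {x : G} (hx : x ∈ K ⊔ R) (hxN : x ∈ Nn R) :
    ∃ c ∈ K ⊓ Cn R, ∃ r ∈ R, x = c * r := by
  have h1 : x ∈ ((K ⊔ R : Subgroup G) : Set G) := hx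
  rw [Subgroup.normal_mul] at h1
  obtain ⟨c, hc, r, hr, rfl⟩ := Set.mem_mul.1 h1
  have hcN : c ∈ Nn R := by
    have := (Nn R).mul_mem hxN ((Nn R).inv_mem (Subgroup.le_normalizer hr))
    simpa using this
  refine ⟨c, ⟨hc, ?_⟩, r, hr, rfl⟩
  show c ∈ Subgroup.centralizer (R : Set G)
  rw [Subgroup.mem_centralizer_iff]
  intro u hu
  have h2 : c * u * c⁻¹ ∈ R := (Subgroup.mem_normalizer_iff.1 hcN u).1 hu
  have h3 : c * u * c⁻¹ * u⁻¹ ∈ R := R.mul_mem h2 (R.inv_mem hu)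
  have h4 : c * u * c⁻¹ * u⁻¹ ∈ K := by
    have h5 : u * c⁻¹ * u⁻¹ ∈ K := (inferInstance : K.Normal).conj_mem _ (K.inv_mem hc) u
    have := K.mul_mem hc h5
    simpa [mul_assoc] using this
  have h5 := inf_eq_bot_of_coprime hK hR h4 h3
  calc u * c = (c * u * c⁻¹ * u⁻¹)⁻¹ * (c * u) := by group
    _ = c * u := by rw [h5]; simp

end grp

section alg
variable {k : Type*} {G : Type*} [Field k] [Group G] [Fintype G]
variable {p : ℕ} [Fact p.Prime] [CharP k p]

/-- relative form: `K ≤ L` normal in `H`, `K` a `p'`-group containing the `p`-regular elements of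
`L`, `Q` a maximal `p`-subgroup of `L` such that the `p`-regular elements of `C_H(Q)` lie in `L`:
every `H`-stable block of `K` is a block of `H`. -/
theorem isBlk_of_constrained (hos : Osima p k G) {H K L Q : Subgroup G} (hKL : K ≤ L)
    (hLH : L ≤ H) (hHK : H ≤ Nn K) (hHL : H ≤ Nn L) (hK : (Nat.card K).Coprime p)
    (hregL : ∀ x ∈ L, ¬ p ∣ orderOf x → x ∈ K) (hQL : Q ≤ L) (hQ : IsPGroup p Q)
    (hmax : ∀ S' : Subgroup G, IsPGroup p S' → S' ≤ L → Q ≤ S' → S' ≤ Q)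
    (hregC : ∀ x ∈ H, x ∈ Cn Q → ¬ p ∣ orderOf x → x ∈ L) {b : GA k G} (hb : IsBlk K b)
    (hfix : FixBy H b) (hsp : ∀ z, InZ K z → ∃ c : k, IsNilpotent (z * b - c • b)) :
    IsBlk H b := by
  have hbL : IsBlk L b := hos.isBlk_of_fix hKL hregL hb (hfix.mono hLH)
  have hQdef : IsDef p L b Q := isDef_of_coprime hK hb (hLH.trans hHK) hbL hsp hQL hQ hmax
  exact isBlk_of_regular_centralizer hos hLH hHL hbL hfix hQdef hregC

/-- Glauberman correspondence for block idempotents: `Br_R(e)` is a block of `C_K(R)` -/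
theorem isBlk_br_of_coprime (hos : Osima p k G) {K R : Subgroup G} [K.Normal]
    (hK : (Nat.card K).Coprime p) (hR : IsPGroup p R) {e : GA k G} (he : IsBlk K e)
    (hfix : FixBy R e) (hsp : ∀ z, InZ K z → ∃ c : k, IsNilpotent (z * e - c • e)) :
    IsBlk (K ⊓ Cn R) (br R e) := by
  have hKN : ∀ X : Subgroup G, X ≤ Nn K := by
    intro X x _
    show x ∈ Subgroup.normalizer (K : Set G)
    rw [Subgroup.normalizer_eq_top]; exact Subgroup.mem_top x
  have hfix' : FixBy (K ⊔ R) e := he.inZ.2.sup hfix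
  have heX : IsBlk (K ⊔ R) e :=
    hos.isBlk_of_fix le_sup_left (fun x hx ho => mem_of_regular_of_map (isPGroup_map_sup hR) hx ho)
      he hfix'
  have hdef : IsDef p (K ⊔ R) e R :=
    isDef_of_coprime hK he (hKN _) heX hsp le_sup_right hR (fun S' hS' hle hRS' =>
      le_of_le_sup_coprime hK hS' hRS' (by rwa [sup_comm]))
  obtain ⟨hβ, -⟩ := isBlk_br heX hdef
  refine ⟨⟨fun g hg => ?_, hβ.inZ.2.mono ?_⟩, hβ.idem, hβ.ne_zero, ?_⟩
  · by_cases hgC : g ∈ Cn R
    · rw [br_apply_mem _ hgC]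
      apply he.inZ.1
      intro hgK
      exact hg ⟨hgK, hgC⟩
    · exact br_apply_not_mem _ hgC
  · exact le_inf (inf_le_left.trans le_sup_left) (inf_le_right.trans (Cn_le_Nn R))
  · intro z hz hzz
    apply hβ.prim z _ hzz
    refine ⟨hz.1.mono (le_inf (inf_le_left.trans le_sup_left) (inf_le_right.trans (Cn_le_Nn R))),
      ?_⟩
    intro x hx
    obtain ⟨c, hc, r, hr, rfl⟩ := exists_mul_of_mem_normalizer hK hR hx.1 hx.2
    rw [← cj_cj, fixBy_of_suppOn_Cn (hz.1.mono inf_le_right) r hr, hz.2 c hc]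

/-- **Blocks of `p`-constrained groups** (abstract form). -/
theorem constrained_main (hos : Osima p k G)
    (hsp : ∀ (H : Subgroup G) (b : GA k G), IsBlk H b →
      ∀ z, InZ H z → ∃ c : k, IsNilpotent (z * b - c • b))
    {K L Q : Subgroup G} [K.Normal] [L.Normal] (hK : (Nat.card K).Coprime p)
    (hLp : IsPGroup p (L.map (QuotientGroup.mk' K))) (hKL : K ≤ L) (hQ : IsPGroup p Q)
    (hQL : Q ≤ L) (hLQ : L ≤ Q ⊔ K) (hCQ : Cn Q ≤ L) {e : GA k G} (he : IsBlk K e)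
    (hfix : FixBy ⊤ e) :
    IsBlk ⊤ e ∧ (∀ S : Sylow p G, IsDef p ⊤ e S) ∧
      ∀ R : Subgroup G, IsPGroup p R → IsBlk (Cn R) (br R e) := by
  have hN : ∀ (Y : Subgroup G) [Y.Normal] (X : Subgroup G), X ≤ Nn Y := by
    intro Y _ X x _
    show x ∈ Subgroup.normalizer (Y : Set G)
    rw [Subgroup.normalizer_eq_top]; exact Subgroup.mem_top x
  have hregL : ∀ x ∈ L, ¬ p ∣ orderOf x → x ∈ K := fun x hx ho => mem_of_regular_of_map hLp hx ho
  have h1 : IsBlk ⊤ e :=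
    isBlk_of_constrained hos hKL le_top (hN K _) (hN L _) hK hregL hQL hQ
      (fun S' hS' hle hQS' => le_of_le_sup_coprime hK hS' hQS' (hle.trans hLQ))
      (fun x _ hx _ => hCQ hx) he hfix (hsp K e he)
  refine ⟨h1, ?_, ?_⟩
  · intro S
    apply isDef_of_coprime hK he (hN K _) h1 (hsp K e he) le_top S.2
    intro S' hS' _ hle
    exact (S.3 hS' hle).le
  · intro R hR
    have hb₀ : IsBlk (K ⊓ Cn R) (br R e) :=
      isBlk_br_of_coprime hos hK hR he (hfix.mono le_top) (hsp K e he)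
    have hL₀p : IsPGroup p ((L ⊓ Cn R).map (QuotientGroup.mk' K)) :=
      hLp.to_le (Subgroup.map_mono inf_le_left)
    obtain ⟨Q₀, hQ₀L, hQ₀, hle₀⟩ := exists_pgroup_sup hL₀p
    have hnorm : ∀ (Y : Subgroup G) [Y.Normal], Cn R ≤ Nn (Y ⊓ Cn R) := by
      intro Y hY x hx
      show x ∈ Subgroup.normalizer ((Y ⊓ Cn R : Subgroup G) : Set G)
      rw [Subgroup.mem_normalizer_iff]
      intro g
      constructor
      · rintro ⟨h1, h2⟩
        exact ⟨hY.conj_mem _ h1 x, (Cn R).mul_mem ((Cn R).mul_mem hx h2) ((Cn R).inv_mem hx)⟩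
      · rintro ⟨h1, h2⟩
        constructor
        · have := hY.conj_mem _ h1 x⁻¹
          simpa [mul_assoc] using this
        · have := (Cn R).mul_mem ((Cn R).mul_mem ((Cn R).inv_mem hx) h2) hx
          simpa [mul_assoc] using this
    apply isBlk_of_constrained hos (K := K ⊓ Cn R) (L := L ⊓ Cn R) (Q := Q₀)
      (inf_le_inf_right _ hKL) inf_le_right (hnorm K) (hnorm L)
      (Nat.Coprime.coprime_dvd_left (Subgroup.card_dvd_of_le inf_le_left) hK)
      (fun x hx ho => ⟨hregL x hx.1 ho, hx.2⟩) hQ₀L hQ₀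
      (fun S' hS' hle hQS' => le_of_le_sup_coprime hK hS' hQS' (hle.trans hle₀))
      (fun x hxR hxQ ho =>
        ⟨hKL (regular_centralizer_mem hK hLp hKL hQ hQL hCQ hR hle₀ hxR hxQ ho), hxR⟩)
      hb₀ ((hfix.mono le_top).br (Cn_le_Nn R)) (hsp _ _ hb₀)

end alg

end Kn

end Cfsg.Agent.Lib.Helper29
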