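import Mathlib
import Cfsg.Agent.Lib.Helper29.PConstr2

set_option autoImplicit false
set_option linter.unusedSectionVars false

namespace Cfsg.Agent.Lib.Helper29

open scoped BigOperators
open Cfsg Cfsg.Agent.Lib.Helper80 Cfsg.Agent.Lib.Helper81 Cfsg.Agent.Lib.Helper20
open Cfsg.Agent.Lib.Helper21

namespace Kn

open GA

variable {p : ℕ} [Fact p.Prime] {M : Ideal AlgInt} (hM : IsPModular p M)
  {G : Type*} [Group G] [Fintype G]

theorem inZ_br_Cn {k : Type*} [Field k] {R : Subgroup G} {z : GA k G} (hz : InZ ⊤ z) :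
    InZ (Cn R) (br R z) :=
  ⟨br_suppOn R z, (hz.2.mono le_top).br (Cn_le_Nn R)⟩

/-- block induction from `C(R)`, forward translation -/
theorem br_mul_bl_of_induced_Cn {R : Subgroup G} (hR : IsPGroup p R)
    {f : Set (IrrCharacter (Cn R))} {B : Set (IrrCharacter G)}
    (hind : IsInducedBlock M (Cn R) f B) :
    br R (blkR hM B) * bl hM (Cn R) f = bl hM (Cn R) f := by
  classical
  have _ : Fintype (Cn R) := Fintype.ofFinite _
  obtain ⟨ξ, hξ⟩ := isPBlock_nonempty hM hind.1
  obtain ⟨χ, hχ⟩ := isPBlock_nonempty hM hind.2.1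
  have h1 := omega_res_sub_omega_of_induced hM hind hξ hχ (blockCoeff_classFunction B)
    (RV_blockCoeff hM hind.2.1)
  rw [omega_blockCoeff, if_pos hχ] at h1
  have h2 := not_isNilpotent_trunc_mul_bl hM (Cn R) hind.1 (RV_blockCoeff hM hind.2.1)
    (fun g h => blockCoeff_classFunction B _ _) hξ (not_memLocalIdeal_of_sub_one hM h1)
  have h3 : br R (blkR hM B) * br R (blkR hM B) = br R (blkR hM B) :=
    br_idem hR ((blkR_inZ hM B).2.mono le_top) (blkR_idem hM hind.2.1)
  rcases (isBlk_bl hM (Cn R) hind.1).prim _ (inZ_br_Cn (blkR_inZ hM B)) h3 with h | h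
  · exfalso
    apply h2
    have : trunc (Cn R) (red hM (blockCoeff B)) * bl hM (Cn R) f = 0 := h
    rw [this]
    exact IsNilpotent.zero
  · exact h

/-- block induction from `C(R)`, backward translation -/
theorem induced_Cn_of_br_mul_bl {R : Subgroup G} (hR : IsPGroup p R)
    {f : Set (IrrCharacter (Cn R))} (hf : IsPBlock M f) {B : Set (IrrCharacter G)}
    (hB : IsPBlock M B) (h : br R (blkR hM B) * bl hM (Cn R) f = bl hM (Cn R) f) :
    IsInducedBlock M (Cn R) f B := by
  classical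
  have _ : Fintype (Cn R) := Fintype.ofFinite _
  refine ⟨hf, hB, ?_⟩
  intro ξ hξ χ hχ g
  obtain ⟨a, ha⟩ : ∃ a, a = centralChar (χ : G → ℂ) g := ⟨_, rfl⟩
  have haR : MemLocalRing M a := by
    rw [ha, ← omega_classInd (irr_classFunction χ)]
    exact omega_memLocalRing hM χ (classInd_classFunction g) (RV_classInd hM g)
  obtain ⟨A, hA⟩ : ∃ A : G → ℂ, A = classInd g - a • dl := ⟨_, rfl⟩
  have hAc : IsClassFunction G A := by
    rw [hA]
    exact classFunction_sub (classInd_classFunction g) (classFunction_smul a dl_classFunction)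
  have hAR : RV M A := by
    rw [hA]
    exact RV.sub hM (RV_classInd hM g) (RV.smul hM haR (RV_dl hM))
  have hω : omega (χ : G → ℂ) A = 0 := by
    rw [hA, omega_sub, omega_smul, omega_dl (irr_one_ne_zero χ.2),
      omega_classInd (irr_classFunction χ), ha]
    ring
  have h1 : IsNilpotent (red hM A * blkR hM B) :=
    isNilpotent_red_mul_blkR hM hB hAc hAR hχ (by rw [hω]; exact memLocalIdeal_zero hM)
  have hAZ : InZ ⊤ (red hM A) := inZ_red hM hAc
  have h2 : IsNilpotent (br R (red hM A) * br R (blkR hM B)) := by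
    rw [← br_mul hR (hAZ.2.mono le_top) ((blkR_inZ hM B).2.mono le_top)]
    exact isNilpotent_br hR ((hAZ.mul (blkR_inZ hM B)).2.mono le_top) h1
  have hfZ := (isBlk_bl hM (Cn R) hf).inZ
  have h3 : IsNilpotent (br R (red hM A) * bl hM (Cn R) f) := by
    have hc : Commute (br R (red hM A) * br R (blkR hM B)) (bl hM (Cn R) f) :=
      ((inZ_br_Cn hAZ).mul (inZ_br_Cn (blkR_inZ hM B))).comm hfZ
    have := hc.isNilpotent_mul_right h2
    rwa [mul_assoc, h] at this
  have h4 : MemLocalIdeal M (omega (ξ : Cn R → ℂ) (fun x : Cn R => A x)) := by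
    by_contra hn
    exact not_isNilpotent_trunc_mul_bl hM (Cn R) hf hAR (fun x y => hAc _ _) hξ hn h3
  have h5 : (fun x : Cn R => A x) = (fun x : Cn R => classInd g (x : G)) - a • dl := by
    funext x
    rw [hA]
    simp only [Pi.sub_apply, Pi.smul_apply, dl_apply]
    congr 2
    simp
  rw [h5, omega_sub, omega_smul, omega_dl (irr_one_ne_zero ξ.2), ← inducedCentralChar_eq_omega,
    mul_one, ha] at h4
  exact h4

theorem isInducedBlock_Cn_iff {R : Subgroup G} (hR : IsPGroup p R)
    {f : Set (IrrCharacter (Cn R))} (hf : IsPBlock M f) {B : Set (IrrCharacter G)}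
    (hB : IsPBlock M B) :
    IsInducedBlock M (Cn R) f B ↔ br R (blkR hM B) * bl hM (Cn R) f = bl hM (Cn R) f :=
  ⟨br_mul_bl_of_induced_Cn hM hR, induced_Cn_of_br_mul_bl hM hR hf hB⟩

include hM in
theorem isPBlock_singleton_of_coprime {K : Type*} [Group K] [Fintype K]
    (hK : (Nat.card K).Coprime p) (θ : IrrCharacter K) : IsPBlock M ({θ} : Set (IrrCharacter K)) := by
  refine ⟨θ, ?_⟩
  have hnd : ¬ p ∣ Nat.card K := by
    intro h
    exact (Fact.out : p.Prime).ne_one (Nat.Coprime.eq_one_of_dvd hK.symm h)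
  ext ψ
  constructor
  · intro h
    rw [Set.mem_singleton_iff] at h
    rw [h]
    exact mem_blockOf_self hM θ
  · intro h
    exact (eq_of_sameBlock_of_not_dvd_card hM hnd h).symm

include hM in
/-- **Blocks of `p`-constrained groups.** -/
theorem constrained_blocks (K : Subgroup G) (hK : K = Cfsg.pPrimeCore p G) [Fintype K]
    (L : Subgroup G) (hL : L = Cfsg.pPrimePCore p G) (Q : Subgroup G) (hQL : Q ≤ L)
    (hQp : IsPGroup p Q) (hQS : ¬ p ∣ Q.relIndex L)
    (hCQ : Subgroup.centralizer (Q : Set G) ≤ L) (θ : IrrCharacter K)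
    (hθ : ∀ g : G, IsConjCharOf K g (θ : K → ℂ) (θ : K → ℂ)) (B : Set (IrrCharacter G))
    (hBdef : ∀ χ : IrrCharacter G,
      χ ∈ B ↔ classInner (fun k : K => (χ : G → ℂ) k) (θ : K → ℂ) ≠ 0) :
    IsPBlock M B ∧ (∀ S : Sylow p G, IsDefectGroup p M B S) ∧
      ∀ R : Subgroup G, IsPGroup p R →
        ∃! f : Set (IrrCharacter (Subgroup.centralizer (R : Set G))),
          IsInducedBlock M (Subgroup.centralizer (R : Set G)) f B := by
  have hKn : K.Normal := by rw [hK]; exact Cfsg.Agent.Lib.Helper1.pPrimeCore_normal p G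
  have hLn : L.Normal := by rw [hL]; exact Cfsg.Agent.Lib.Helper14.pPrimePCore_normal p G
  have hKc : (Nat.card K).Coprime p := by
    rw [hK]; exact Cfsg.Agent.Lib.Helper14.card_pPrimeCore_coprime
  have hKL : K ≤ L := by
    rw [hK, hL]; exact Cfsg.Agent.Lib.Helper14.pPrimeCore_le_pPrimePCore p G
  have hLp : IsPGroup p (L.map (QuotientGroup.mk' K)) := by
    subst hK hL
    rw [Cfsg.Agent.Lib.Helper14.map_pPrimePCore]
    exact Cfsg.Agent.Lib.Helper14.isPGroup_pCore
  have hLQ : L ≤ Q ⊔ K := by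
    rw [← Subgroup.relIndex_eq_one]
    obtain ⟨a, ha⟩ := IsPGroup.iff_card.1 hLp
    have h1 : K.relIndex L = p ^ a := by
      rw [← ha]
      have := Subgroup.relIndex_ker (QuotientGroup.mk' K) (K := L)
      rwa [QuotientGroup.ker_mk'] at this
    have h2 : (Q ⊔ K).relIndex L ∣ Q.relIndex L := Subgroup.relIndex_dvd_of_le_left L le_sup_left
    have h3 : (Q ⊔ K).relIndex L ∣ p ^ a := h1 ▸ Subgroup.relIndex_dvd_of_le_left L le_sup_right
    have hcop : Nat.Coprime (p ^ a) (Q.relIndex L) :=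
      Nat.Coprime.pow_left a ((Nat.Prime.coprime_iff_not_dvd Fact.out).2 hQS)
    exact Nat.eq_one_of_dvd_coprimes hcop h3 h2
  have hc : IsPBlock M ({θ} : Set (IrrCharacter K)) := isPBlock_singleton_of_coprime hM hKc θ
  have hst : ∀ x : G, StabilizesBlock K ({θ} : Set (IrrCharacter K)) x := by
    intro x
    refine ⟨by rw [Subgroup.normalizer_eq_top]; exact Subgroup.mem_top x, ?_⟩
    intro χ hχ
    rw [Set.mem_singleton_iff] at hχ
    exact ⟨θ, rfl, by rw [hχ]; exact hθ x⟩
  have heK := isBlk_bl hM K hc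
  have hfix : FixBy ⊤ (bl hM K ({θ} : Set (IrrCharacter K))) := fixBy_top_of_stabilizes hM hc hst
  obtain ⟨h1, h2, h3⟩ := constrained_main (osima_Kr hM) (fun H b hb => split_sub hM hb) hKc hLp hKL
    hQp hQL hLQ hCQ heK hfix
  obtain ⟨B₀, hB₀, hBe⟩ := exists_block_of_isBlk hM h1
  have hBB : B = B₀ := by
    ext χ
    rw [hBdef]
    constructor
    · intro hcon
      have hB₁ : IsPBlock M (blockOf M (χ : G → ℂ)) := ⟨χ, rfl⟩
      have h4 := mul_ne_zero_of_covers hM hKn hB₁ hc
        ⟨χ, mem_blockOf_self hM χ, θ, rfl, hcon⟩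
      rcases (isBlk_blkR hM hB₁).eq_or_orth h1 with h5 | h5
      · rw [hBe] at h5
        rw [← blkR_injective hM hB₁ hB₀ h5]
        exact mem_blockOf_self hM χ
      · exact absurd h5 h4
    · intro hχ
      obtain ⟨ψ, hψ⟩ := exists_constituent_res K χ
      have hc' : IsPBlock M ({ψ} : Set (IrrCharacter K)) := isPBlock_singleton_of_coprime hM hKc ψ
      have h4 := mul_ne_zero_of_covers hM hKn hB₀ hc' ⟨χ, hχ, ψ, rfl, hψ⟩
      rw [← hBe] at h4
      rcases heK.eq_or_orth (isBlk_bl hM K hc') with h5 | h5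
      · have h6 := bl_injective hM K hc hc' h5
        have h7 : ψ = θ := by
          have : ψ ∈ ({θ} : Set (IrrCharacter K)) := by rw [h6]; rfl
          exact this
        rw [← h7]; exact hψ
      · exact absurd h5 h4
  rw [hBB]
  refine ⟨hB₀, ?_, ?_⟩
  · intro S
    apply isDefectGroup_of_isDef hM hB₀
    rw [← hBe]
    exact h2 S
  · intro R hR
    obtain ⟨f, hf, hfe⟩ := exists_block_of_isBlk_sub hM (Cn R) (h3 R hR)
    refine ⟨f, ?_, ?_⟩
    · apply (isInducedBlock_Cn_iff hM hR hf hB₀).2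
      rw [← hBe, hfe]
      exact (isBlk_bl hM (Cn R) hf).idem
    · intro f' hf'
      have h4 := br_mul_bl_of_induced_Cn hM hR hf'
      rw [← hBe, hfe] at h4
      rcases (isBlk_bl hM (Cn R) hf).eq_or_orth (isBlk_bl hM (Cn R) hf'.1) with h5 | h5
      · exact (bl_injective hM (Cn R) hf hf'.1 h5).symm
      · exfalso
        apply (isBlk_bl hM (Cn R) hf'.1).ne_zero
        rw [← h4, h5]

end Kn

end Cfsg.Agent.Lib.Helper29
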