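import Mathlib
import Cfsg.Agent.Lib.Helper29.PConstr3
import Cfsg.Agent.Lib.Helper80.GAKerT
import Cfsg.Agent.Lib.Helper80.GAFusT

set_option autoImplicit false
set_option linter.unusedSectionVars false

namespace Cfsg.Agent.Lib.Helper29

open scoped BigOperators
open Cfsg Cfsg.Agent.Lib.Helper80 Cfsg.Agent.Lib.Helper81 Cfsg.Agent.Lib.Helper20
open Cfsg.Agent.Lib.Helper21

namespace Kn

open GA

section abstract
variable {k : Type*} [Field k] {G : Type*} [Group G] [Fintype G] {p : ℕ} [Fact p.Prime] [CharP k p]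

theorem inZ_trunc_top {H : Subgroup G} {z : GA k G} (hz : InZ ⊤ z) : InZ H (trunc H z) :=
  ⟨trunc_suppOn H z, fixBy_trunc hz.2⟩

/-- the root of a block of `H` whose defect group has its centraliser inside `H` -/
theorem exists_root {H D : Subgroup G} {c : GA k G} (hc : IsBlk H c) (hD : IsDef p H c D)
    (hCH : Cn D ≤ H) : ∃ e, IsBlk (Cn D) e ∧ br D c * e = e :=
  exists_blk_of_idem (Cn D) (inZ_br (hc.inZ.2.mono hCH))
    (br_idem hD.pgroup (hc.inZ.2.mono hD.le) hc.idem) hD.br_ne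

/-- key step for the existence of the induced block -/
theorem isNilpotent_trunc_mul {H D : Subgroup G} {c b e : GA k G} (hc : IsBlk H c)
    (hsp : ∀ z, InZ H z → ∃ a : k, IsNilpotent (z * c - a • c))
    (hDp : IsPGroup p D) (hDH : D ≤ H) (hCH : Cn D ≤ H) (hb : InZ ⊤ b)
    (he : IsBlk (Cn D) e) (hce : br D c * e = e) (hbe : br D b * e = e)
    {z : GA k G} (hz : InZ ⊤ z) (hn : IsNilpotent (z * b)) : IsNilpotent (trunc H z * c) := by
  obtain ⟨a, ha⟩ := hsp _ (inZ_trunc_top (H := H) hz)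
  have hfT : FixBy H (trunc H z) := fixBy_trunc hz.2
  have hbrT : br D (trunc H z) = br D z := trunc_trunc hCH z
  -- apply the Brauer map
  have h1 : IsNilpotent (br D (trunc H z * c - a • c)) :=
    isNilpotent_br hDp (((hfT.mul hc.inZ.2).sub (hc.inZ.2.smul a)).mono hDH) ha
  rw [br_sub, br_mul hDp (hfT.mono hDH) (hc.inZ.2.mono hDH), hbrT, br_smul] at h1
  have hzZ : InZ (Cn D) (br D z) := inZ_br (fixBy_top_mono hz.2)
  have hcZ : InZ (Cn D) (br D c) := inZ_br (hc.inZ.2.mono hCH)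
  have hbZ : InZ (Cn D) (br D b) := inZ_br (fixBy_top_mono hb.2)
  have h2 : IsNilpotent ((br D z * br D c - a • br D c) * e) :=
    (show Commute _ _ from ((hzZ.mul hcZ).sub (hcZ.smul a)).comm he.inZ).isNilpotent_mul_right h1
  rw [sub_mul, mul_assoc, smul_mul_assoc, hce] at h2
  have h3 : IsNilpotent (br D z * e) := by
    have h4 : IsNilpotent (br D (z * b)) :=
      isNilpotent_br hDp (fixBy_top_mono (hz.mul hb).2) hn
    rw [br_mul hDp (fixBy_top_mono hz.2) (fixBy_top_mono hb.2)] at h4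
    have h5 : IsNilpotent (br D z * br D b * e) :=
      (show Commute _ _ from (hzZ.mul hbZ).comm he.inZ).isNilpotent_mul_right h4
    rwa [mul_assoc, hbe] at h5
  have h6 : IsNilpotent (a • e) := by
    have hcomm : Commute (br D z * e) (br D z * e - a • e) :=
      (show Commute _ _ from (hzZ.mul he.inZ).comm ((hzZ.mul he.inZ).sub (he.inZ.smul a)))
    have := hcomm.isNilpotent_sub h3 h2
    rwa [sub_sub_cancel] at this
  have ha0 : a = 0 := by
    by_contra hne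
    apply he.not_nilpotent
    have := isNilpotent_smul a⁻¹ h6
    rwa [smul_smul, inv_mul_cancel₀ hne, one_smul] at this
  rw [ha0, zero_smul, sub_zero] at ha
  exact ha

/-- the defect group statement -/
theorem exists_isDef_above {H D₀ : Subgroup G} {c b e₀ : GA k G} (hc : IsBlk H c)
    (hD₀ : IsDef p H c D₀) (hCH : Cn D₀ ≤ H) (hb : IsBlk ⊤ b)
    (he : IsBlk (Cn D₀) e₀) (hce : br D₀ c * e₀ = e₀) (hbe : br D₀ b * e₀ = e₀) :
    ∃ D, IsDef p ⊤ b D ∧ D₀ ≤ D ∧ D ⊓ Cn D ≤ D₀ := by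
  have hpair : IsBPOf p b D₀ e₀ := ⟨⟨hD₀.pgroup, he⟩, hb, hbe⟩
  obtain ⟨D, e, hmax, hle⟩ := IsBPOf.exists_le_max _ D₀ e₀ hpair rfl
  have hD₀D : D₀ ≤ D := hle.le
  have hDe : IsBP p D e := hmax.1.1
  refine ⟨D, hmax.isDef, hD₀D, ?_⟩
  obtain ⟨R, hR⟩ : ∃ R, R = D₀ ⊔ (D ⊓ Cn D) := ⟨_, rfl⟩
  have hRD : R ≤ D := by rw [hR]; exact sup_le hD₀D inf_le_left
  have hD₀R : D₀ ≤ R := by rw [hR]; exact le_sup_left
  have hZC : D ⊓ Cn D ≤ Cn D₀ := inf_le_right.trans (Cn_anti hD₀D)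
  have hRN : R ≤ Nn D₀ := by
    rw [hR]; exact sup_le Subgroup.le_normalizer (hZC.trans (Cn_le_Nn D₀))
  have hRH : R ≤ H := by rw [hR]; exact sup_le hD₀.le (hZC.trans hCH)
  have hRp : IsPGroup p R := hDe.1.to_le hRD
  obtain ⟨g, hg, hgle⟩ := hDe.exists_subpair' hRD
  have hRg : IsBP p R g := ⟨hRp, hg⟩
  obtain ⟨f₁, hf₁, _⟩ := hRg.existsUnique_nsub hD₀R hRN
  have hle1 : BPLE p (D₀, f₁) (R, g) :=
    Relation.ReflTransGen.single (show NSub p (D₀, f₁).1 (D₀, f₁).2 (R, g).1 (R, g).2 from hf₁)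
  have hf₁e : f₁ = e₀ := hDe.subpair_unique _ D₀ f₁ e₀ rfl (hle1.trans hgle) hle
  subst hf₁e
  obtain ⟨_, _, _, _, hfix, hbr⟩ := hf₁
  have hbrR : br R c ≠ 0 := by
    intro h0
    apply hg.ne_zero
    have h1 : br R (br D₀ c * f₁) = br R c * br R f₁ := by
      rw [br_mul hRp ((hc.inZ.2.mono hRH).br hRN) hfix, br_br hD₀R]
    rw [hce, h0, zero_mul] at h1
    rw [← hbr, h1, zero_mul]
  obtain ⟨x, _, hx⟩ := hD₀.zd.le_conj_of_br_ne hRH hRp hbrR
  have hcard : Nat.card R ≤ Nat.card D₀ := by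
    rw [← card_cS x D₀]; exact Subgroup.card_le_of_le hx
  have hEq : D₀ = R := Subgroup.eq_of_le_of_card_ge hD₀R hcard
  rw [hEq, hR]
  exact le_sup_right

end abstract

end Kn

end Cfsg.Agent.Lib.Helper29
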