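import Mathlib
import Cfsg.Agent.Lib.Helper29.IndDef1

set_option autoImplicit false
set_option linter.unusedSectionVars false

namespace Cfsg.Agent.Lib.Helper29

open scoped BigOperators
open Cfsg Cfsg.Agent.Lib.Helper80 Cfsg.Agent.Lib.Helper81 Cfsg.Agent.Lib.Helper20
open Cfsg.Agent.Lib.Helper21

namespace Kn

open GA

variable {p : ℕ} [Fact p.Prime] {M : Ideal AlgInt} (hM : IsPModular p M)
  {G : Type*} [Group G] [Fintype G]

/-- backward translation of block induction, general subgroup -/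
theorem isInducedBlock_of_nilpotent {H : Subgroup G}
    {f : Set (IrrCharacter H)} (hf : IsPBlock M f) {B : Set (IrrCharacter G)}
    (hB : IsPBlock M B)
    (h : ∀ z : GA (Kr hM) G, InZ ⊤ z → IsNilpotent (z * blkR hM B) →
      IsNilpotent (trunc H z * bl hM H f)) :
    IsInducedBlock M H f B := by
  classical
  have _ : Fintype H := Fintype.ofFinite _
  refine ⟨hf, hB, ?_⟩
  intro ξ hξ χ hχ g
  obtain ⟨a, ha⟩ : ∃ a, a = centralChar (χ : G → ℂ) g := ⟨_, rfl⟩
  have haR : MemLocalRing M a := by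
    rw [ha, ← omega_classInd (irr_classFunction χ)]
    exact omega_memLocalRing hM χ (classInd_classFunction g) (RV_classInd hM g)
  obtain ⟨A, hA⟩ : ∃ A : G → ℂ, A = classInd g - a • dl := ⟨_, rfl⟩
  have hAc : IsClassFunction G A := by
    rw [hA]
    exact classFunction_sub (classInd_classFunction g) (classFunction_smul a dl_classFunction)
  have hAR : RV M A := by
    rw [hA]
    exact RV.sub hM (RV_classInd hM g) (RV.smul hM haR (RV_dl hM))
  have hω : omega (χ : G → ℂ) A = 0 := by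
    rw [hA, omega_sub, omega_smul, omega_dl (irr_one_ne_zero χ.2),
      omega_classInd (irr_classFunction χ), ha]
    ring
  have h1 : IsNilpotent (red hM A * blkR hM B) :=
    isNilpotent_red_mul_blkR hM hB hAc hAR hχ (by rw [hω]; exact memLocalIdeal_zero hM)
  have hAZ : InZ ⊤ (red hM A) := inZ_red hM hAc
  have h3 := h _ hAZ h1
  have h4 : MemLocalIdeal M (omega (ξ : H → ℂ) (fun x : H => A x)) := by
    by_contra hn
    exact not_isNilpotent_trunc_mul_bl hM H hf hAR (fun x y => hAc _ _) hξ hn h3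
  have h5 : (fun x : H => A x) = (fun x : H => classInd g (x : G)) - a • dl := by
    funext x
    rw [hA]
    simp only [Pi.sub_apply, Pi.smul_apply, dl_apply]
    congr 2
    simp
  rw [h5, omega_sub, omega_smul, omega_dl (irr_one_ne_zero ξ.2), ← inducedCentralChar_eq_omega,
    mul_one, ha] at h4
  exact h4

include hM in
/-- `b` a block of `H` with defect group `D₀`, `C_G(D₀) ≤ H`: `b^G` is defined and has a defect
group `D ≥ D₀` with `Z(D) ≤ D₀`. -/
theorem induced_defect (H : Subgroup G) (b : Set (IrrCharacter H)) (hb : IsPBlock M b)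
    (D₀ : Subgroup G) (hD₀H : D₀ ≤ H) (hD₀ : IsDefectGroup p M b (D₀.subgroupOf H))
    (hC : Subgroup.centralizer (D₀ : Set G) ≤ H) :
    InducedBlockDefined M H b ∧ ∀ B : Set (IrrCharacter G), IsInducedBlock M H b B →
      ∃ D : Subgroup G, IsDefectGroup p M B D ∧ D₀ ≤ D ∧
        D ⊓ Subgroup.centralizer (D : Set G) ≤ D₀ := by
  have hc := isBlk_bl hM H hb
  have hdef := (isDefectGroup_sub_iff hM H hb hD₀H).1 hD₀
  obtain ⟨e₀, he₀, hce⟩ := exists_root hc hdef hC
  constructor
  · obtain ⟨b', ⟨_, hb', hbe⟩, _⟩ := IsBP.existsUnique_block (p := p) (P := D₀) (e := e₀)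
      ⟨hdef.pgroup, he₀⟩
    obtain ⟨B, hB, rfl⟩ := exists_block_of_isBlk hM hb'
    exact ⟨B, isInducedBlock_of_nilpotent hM hb hB (fun z hz hn =>
      isNilpotent_trunc_mul hc (split_sub hM hc) hdef.pgroup hD₀H hC hb'.inZ he₀ hce hbe hz hn)⟩
  · intro B hind
    have hB := hind.2.1
    have hbB := isBlk_blkR hM hB
    have hbe := (indB_of_isInducedBlock hM hind).br_mul_eq hdef.pgroup hD₀H hC hbB.inZ hbB.idem
      hc.inZ he₀ hce
    obtain ⟨D, hD, h1, h2⟩ := exists_isDef_above hc hdef hC hbB he₀ hce hbe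
    exact ⟨D, (isDefectGroup_iff_isDef hM hB).2 hD, h1, h2⟩

include hM in
/-- abelian defect groups -/
theorem isDefectGroup_of_abelian {B : Set (IrrCharacter G)} (hB : IsPBlock M B)
    {D D₁ D₀ : Subgroup G} (hD : IsDefectGroup p M B D) (hab : IsMulCommutative D)
    (hD₁ : IsDefectGroup p M B D₁) (h1 : D₀ ≤ D₁)
    (h2 : D₁ ⊓ Subgroup.centralizer (D₁ : Set G) ≤ D₀) : IsDefectGroup p M B D₀ := by
  obtain ⟨x, _, hx⟩ := ((isDefectGroup_iff_isDef hM hB).1 hD₁).exists_conj
    ((isDefectGroup_iff_isDef hM hB).1 hD)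
  have hle : D₁ ≤ Subgroup.centralizer (D₁ : Set G) := by
    intro u hu
    rw [Subgroup.mem_centralizer_iff]
    intro v hv
    have hu' : x * u * x⁻¹ ∈ D := by
      rw [hx, mem_cS]; simpa [mul_assoc] using hu
    have hv' : x * v * x⁻¹ ∈ D := by
      rw [hx, mem_cS]; simpa [mul_assoc] using hv
    have := congrArg Subtype.val (mul_comm' (⟨_, hv'⟩ : D) ⟨_, hu'⟩)
    simp only [Subgroup.coe_mul] at this
    have e1 : x * v * x⁻¹ * (x * u * x⁻¹) = x * (v * u) * x⁻¹ := by group
    have e2 : x * u * x⁻¹ * (x * v * x⁻¹) = x * (u * v) * x⁻¹ := by group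
    rw [e1, e2] at this
    exact mul_left_cancel (mul_right_cancel this)
  have : D₀ = D₁ := le_antisymm h1 ((le_inf le_rfl hle).trans h2)
  rw [this]; exact hD₁

end Kn

end Cfsg.Agent.Lib.Helper29
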