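import Mathlib
import Cfsg.Agent.Lib.Helper29.InvCore

set_option autoImplicit false

namespace Cfsg.Agent.Lib.Helper29

open Subgroup
open Cfsg.Agent.Lib.Helper37 (CharP)
open scoped commutatorElement

universe u

/-- The elements centralizing `B` and acting trivially on `R / B` (`R` normal). -/
def stabSub {Y : Type*} [Group Y] (R B : Subgroup Y) [R.Normal] : Subgroup Y where
  carrier := {y | (∀ b ∈ B, y * b = b * y) ∧ ∀ r ∈ R, y * r * y⁻¹ * r⁻¹ ∈ B}
  one_mem' := ⟨fun b _ => by simp, fun r _ => by simp [one_mem]⟩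
  mul_mem' := by
    rintro y1 y2 ⟨h1, h1'⟩ ⟨h2, h2'⟩
    refine ⟨fun b hb => by rw [mul_assoc, h2 b hb, ← mul_assoc, h1 b hb, mul_assoc], fun r hr => ?_⟩
    have e : y1 * y2 * r * (y1 * y2)⁻¹ * r⁻¹ =
        (y1 * (y2 * r * y2⁻¹ * r⁻¹)) * (r * y1⁻¹ * r⁻¹) := by group
    rw [e, h1 _ (h2' r hr)]
    have e2 : y2 * r * y2⁻¹ * r⁻¹ * y1 * (r * y1⁻¹ * r⁻¹) =
        (y2 * r * y2⁻¹ * r⁻¹) * (y1 * r * y1⁻¹ * r⁻¹) := by group
    rw [e2]
    exact mul_mem (h2' r hr) (h1' r hr)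
  inv_mem' := by
    rintro y ⟨h1, h1'⟩
    refine ⟨fun b hb => ?_, fun r hr => ?_⟩
    · have := h1 b hb
      calc y⁻¹ * b = y⁻¹ * (b * y) * y⁻¹ := by group
        _ = y⁻¹ * (y * b) * y⁻¹ := by rw [this]
        _ = b * y⁻¹ := by group
    · have hr' : y⁻¹ * r * y ∈ R := by
        have := Normal.conj_mem (inferInstance : R.Normal) r hr y⁻¹
        rwa [inv_inv] at this
      have h2 := inv_mem (h1' _ hr')
      have e : (y * (y⁻¹ * r * y) * y⁻¹ * (y⁻¹ * r * y)⁻¹)⁻¹ = y⁻¹ * r * y⁻¹⁻¹ * r⁻¹ := by group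
      rwa [e] at h2

theorem mem_stabSub {Y : Type*} [Group Y] {R B : Subgroup Y} [R.Normal] {y : Y} :
    y ∈ stabSub R B ↔ (∀ b ∈ B, y * b = b * y) ∧ ∀ r ∈ R, y * r * y⁻¹ * r⁻¹ ∈ B := Iff.rfl

theorem conj_mem_stabSub {Y : Type*} [Group Y] {R B : Subgroup Y} [R.Normal] {y q : Y}
    (hy : y ∈ stabSub R B) (hq : ∀ b ∈ B, q * b = b * q) : q * y * q⁻¹ ∈ stabSub R B := by
  obtain ⟨h1, h1'⟩ := hy
  have hq' : ∀ b ∈ B, q * b * q⁻¹ = b := fun b hb => by rw [hq b hb, mul_inv_cancel_right]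
  have hq'' : ∀ b ∈ B, q⁻¹ * b = b * q⁻¹ := by
    intro b hb
    calc q⁻¹ * b = q⁻¹ * (b * q) * q⁻¹ := by group
      _ = q⁻¹ * (q * b) * q⁻¹ := by rw [hq b hb]
      _ = b * q⁻¹ := by group
  refine ⟨fun b hb => ?_, fun r hr => ?_⟩
  · calc q * y * q⁻¹ * b = q * y * (q⁻¹ * b) := by group
      _ = q * (y * b) * q⁻¹ := by rw [hq'' b hb]; group
      _ = (q * b) * y * q⁻¹ := by rw [h1 b hb]; group
      _ = b * (q * y * q⁻¹) := by rw [hq b hb]; group
  · have hr' : q⁻¹ * r * q ∈ R := by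
      have := Normal.conj_mem (inferInstance : R.Normal) r hr q⁻¹
      rwa [inv_inv] at this
    have h2 := h1' _ hr'
    have e : q * y * q⁻¹ * r * (q * y * q⁻¹)⁻¹ * r⁻¹ =
        q * (y * (q⁻¹ * r * q) * y⁻¹ * (q⁻¹ * r * q)⁻¹) * q⁻¹ := by group
    rw [e, hq' _ h2]
    exact h2

section

variable {Y : Type u} [Group Y] [Finite Y] {p : ℕ} [Fact p.Prime]

/-- The characteristic `p` core of the argument: `E` abelian, acting quadratically on `O_p(Y)` and
containing all `p`-elements of its centralizer. -/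
theorem eq_bot_of_invariant_quad (hY : CharP p Y) {E K : Subgroup Y} (hE : IsPGroup p E)
    (hEc : ∀ a ∈ E, ∀ b ∈ E, a * b = b * a)
    (hfull : ∀ y ∈ centralizer (E : Set Y), ∀ k : ℕ, y ^ p ^ k = 1 → y ∈ E)
    (hquad : ⁅⁅pCore p Y, E⁆, E⁆ = ⊥) (hK : (Nat.card K).Coprime p)
    (hEK : E ≤ normalizer (K : Set Y)) : K = ⊥ := by
  set R := pCore p Y with hR
  have hRp : IsPGroup p R := Cfsg.Agent.Lib.Helper28.pCore_isPGroup p
  have hRn : ∀ H : Subgroup Y, H ≤ normalizer (R : Set Y) := by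
    intro H; rw [normalizer_eq_top]; exact le_top
  set B := E ⊓ R with hB
  have hCB : R ⊓ centralizer (E : Set Y) ≤ B := by
    intro x hx
    obtain ⟨hx1, hx2⟩ := mem_inf.1 hx
    obtain ⟨k, hk⟩ := hRp ⟨x, hx1⟩
    exact mem_inf.2 ⟨hfull x hx2 k (by simpa using congrArg Subtype.val hk), hx1⟩
  have hREB : ⁅R, E⁆ ≤ B := by
    refine le_trans (le_inf (comm_le_left_of_le_normalizer (hRn E)) ?_) hCB
    exact commutator_eq_bot_iff_le_centralizer.1 hquad
  have hBK : ∀ b ∈ B, b ∈ centralizer (K : Set Y) := by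
    intro b hb
    obtain ⟨hb1, hb2⟩ := mem_inf.1 hb
    exact mem_centralizer_of_mem_normalizer_of_coprime hK hRp hb2 (hEK hb1)
  have hKB : ∀ q ∈ K, ∀ b ∈ B, q * b = b * q := fun q hq b hb =>
    mem_centralizer_iff.1 (hBK b hb) q hq
  have hEM : E ≤ stabSub R B := by
    intro e he
    refine mem_stabSub.2 ⟨fun b hb => hEc e he b (mem_inf.1 hb).1, fun r hr => ?_⟩
    have h1 : ⁅e, r⁆ ∈ ⁅R, E⁆ := by
      rw [commutator_comm]; exact commutator_mem_commutator he hr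
    exact hREB h1
  set K1 := ⁅K, E⁆ with hK1
  have hK1K : K1 ≤ K := comm_le_left_of_le_normalizer hEK
  have hK1M : K1 ≤ stabSub R B := by
    rw [hK1, commutator_le]
    intro q hq e he
    rw [commutatorElement_def]
    exact mul_mem (conj_mem_stabSub (hEM he) (hKB q hq)) (inv_mem (hEM he))
  have hK1c : (Nat.card K1).Coprime p := Nat.Coprime.coprime_dvd_left (card_dvd_of_le hK1K) hK
  have hRK1 : ⁅R, K1⁆ ≤ B := by
    rw [commutator_comm, commutator_le]
    intro z hz r hr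
    exact (mem_stabSub.1 (hK1M hz)).2 r hr
  have h1 : ⁅⁅R, K1⁆, K1⁆ = ⊥ := by
    rw [eq_bot_iff, commutator_le]
    intro b hb z hz
    rw [mem_bot, commutatorElement_eq_one_iff_mul_comm]
    exact (hKB z (hK1K hz) b (hRK1 hb)).symm
  have h2 : K1 = ⊥ := eq_bot_of_comm_pCore_eq_bot hY hK1c
    (Cfsg.Agent.Lib.Helper27.comm_eq_bot_of_coprime hRp hK1c (hRn K1) h1)
  apply eq_bot_of_comm_pCore_eq_bot hY hK
  apply Cfsg.Agent.Lib.Helper27.thompson_AxB hE hK (by rw [commutator_comm]; exact h2) R hRp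
    (hRn E) (hRn K)
  intro x hx
  exact hBK x (hCB hx)

end

section

variable {X : Type u} [Group X] [Finite X] {p : ℕ} [Fact p.Prime]

/-- `X` `p`-constrained with Sylow `p`-subgroups of class at most two, `A` an abelian `p`-subgroup
containing every `p`-element of its centralizer: every `A`-invariant `p'`-subgroup lies in
`O_{p'}(X)`. -/
theorem le_pPrimeCore_of_invariant_quad (hX : IsPConstrained p X)
    (hcl : ∀ S : Sylow p X, ⁅⁅(S : Subgroup X), (S : Subgroup X)⁆, (S : Subgroup X)⁆ = ⊥)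
    (A : Subgroup X) (hAp : IsPGroup p A) (hAc : ∀ a ∈ A, ∀ b ∈ A, a * b = b * a)
    (hfull : ∀ x ∈ centralizer (A : Set X), ∀ k : ℕ, x ^ p ^ k = 1 → x ∈ A)
    (Q : Subgroup X) (hQ : (Nat.card Q).Coprime p) (hAQ : A ≤ normalizer (Q : Set X)) :
    Q ≤ pPrimeCore p X := by
  rw [isPConstrained_iff_charP] at hX
  apply le_pPrimeCore_of_map_eq_bot
  have hK : (Nat.card (Q.map (qm p X))).Coprime p :=
    Nat.Coprime.coprime_dvd_left (card_map_dvd _ _) hQ
  have hEK : A.map (qm p X) ≤ normalizer ((Q.map (qm p X) : Subgroup (X ⧸ pPrimeCore p X)) :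
      Set (X ⧸ pPrimeCore p X)) := (map_mono hAQ).trans (le_normalizer_map _)
  apply eq_bot_of_invariant_quad hX (hAp.map _) _ _ _ hK hEK
  · rintro _ ⟨a, ha, rfl⟩ _ ⟨b, hb, rfl⟩
    rw [← map_mul, ← map_mul, hAc a ha b hb]
  · intro y hy k hk
    obtain ⟨x, hx, hxk, rfl⟩ := exists_lift_centralizer A hAp hy hk
    exact mem_map_of_mem _ (hfull x hx k hxk)
  · have hP : IsPGroup p (pCore p (X ⧸ pPrimeCore p X) ⊔ A.map (qm p X) :
        Subgroup (X ⧸ pPrimeCore p X)) :=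
      IsPGroup.to_sup_of_normal_left (Cfsg.Agent.Lib.Helper28.pCore_isPGroup p) (hAp.map _)
    obtain ⟨S', hS'⟩ := hP.exists_le_sylow
    obtain ⟨S, rfl⟩ := Sylow.mapSurjective_surjective (qm_surjective (X := X) p) p S'
    rw [Sylow.coe_mapSurjective] at hS'
    rw [eq_bot_iff]
    calc _ ≤ ⁅⁅(S : Subgroup X).map (qm p X), (S : Subgroup X).map (qm p X)⁆,
          (S : Subgroup X).map (qm p X)⁆ :=
          commutator_mono (commutator_mono (le_sup_left.trans hS') (le_sup_right.trans hS'))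
            (le_sup_right.trans hS')
      _ = ⊥ := by rw [← map_commutator, ← map_commutator, hcl S, Subgroup.map_bot]

end

end Cfsg.Agent.Lib.Helper29
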