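import Mathlib
import Cfsg.Agent.Lib.Helper21.StabDefect
import Cfsg.Agent.Lib.Helper21.CoverDefect

set_option autoImplicit false
set_option linter.unusedSectionVars false

namespace Cfsg.Agent.Lib.Helper29

open scoped BigOperators ComplexConjugate
open Cfsg Cfsg.Agent.Lib.Helper20 Cfsg.Agent.Lib.Helper81 Cfsg.Agent.Lib.Helper5
  Cfsg.Agent.Lib.Helper21

namespace NormP

variable {G : Type*} [Group G] [Fintype G] {p : ℕ} {M : Ideal AlgInt}

/-- `K` normal containing the centraliser of a normal `p`-subgroup, `B` covers `b`: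
`B` is the set of all characters over the orbit of `b`. -/
theorem eq_overSet_of_covers (hM : IsPModular p M) (Q : Subgroup G) [Q.Normal]
    (hQ : IsPGroup p Q) {K : Subgroup G} [Fintype K] (hK : K.Normal)
    (hCK : Subgroup.centralizer (Q : Set G) ≤ K) {b : Set (IrrCharacter K)} (hb : IsPBlock M b)
    {B : Set (IrrCharacter G)} (hB : IsPBlock M B) (h : Covers K B b) :
    B = overSet K (conjClosure hK b) := by
  ext χ
  constructor
  · intro hχ
    obtain ⟨ψ, hψ⟩ := exists_constituent_res K χ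
    exact ⟨ψ, mem_conjClosure_of_covers hM hK hB hb h hχ hψ, hψ⟩
  · rintro ⟨ψ, hψ, hcon⟩
    obtain ⟨g, hg⟩ := (mem_conjClosure hK b ψ).1 hψ
    have hcov : Covers K (blockOf M (χ : G → ℂ)) b :=
      ⟨χ, mem_blockOf_self hM χ, _, hg, by rw [constituent_cjIrr]; exact hcon⟩
    have := covers_unique_of_centralizer_le hM Q hQ hK hCK hb hB ⟨χ, rfl⟩ h hcov
    rw [this]
    exact mem_blockOf_self hM χ

/-- the block idempotent is the orbit sum -/
theorem blockCoeff_eq_ext0 (hM : IsPModular p M) (Q : Subgroup G) [Q.Normal]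
    (hQ : IsPGroup p Q) {K : Subgroup G} [Fintype K] (hK : K.Normal)
    (hCK : Subgroup.centralizer (Q : Set G) ≤ K) {b : Set (IrrCharacter K)} (hb : IsPBlock M b)
    {B : Set (IrrCharacter G)} (hB : IsPBlock M B) (h : Covers K B b) :
    blockCoeff B = ext0 K (blockCoeff (conjClosure hK b)) := by
  rw [ext0_conjClosure_eq_blockCoeff_overSet, ← eq_overSet_of_covers hM Q hQ hK hCK hb hB h]

theorem exists_covered (hM : IsPModular p M) (K : Subgroup G) [Fintype K]
    {B : Set (IrrCharacter G)} (hB : IsPBlock M B) :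
    ∃ b : Set (IrrCharacter K), IsPBlock M b ∧ Covers K B b := by
  obtain ⟨χ, hχ⟩ := isPBlock_nonempty hM hB
  obtain ⟨ψ, hψ⟩ := exists_constituent_res K χ
  exact ⟨blockOf M (ψ : K → ℂ), ⟨ψ, rfl⟩, χ, hχ, ψ, mem_blockOf_self hM ψ, hψ⟩

/-- block idempotents are supported on any normal subgroup containing `C_G(Q)`, `Q` a normal
`p`-subgroup. -/
theorem blockCoeff_eq_zero_of_not_mem (hM : IsPModular p M) (Q : Subgroup G) [Q.Normal]
    (hQ : IsPGroup p Q) {K : Subgroup G} (hK : K.Normal)
    (hCK : Subgroup.centralizer (Q : Set G) ≤ K)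
    {B : Set (IrrCharacter G)} (hB : IsPBlock M B) {g : G} (hg : g ∉ K) : blockCoeff B g = 0 := by
  classical
  have _ : Fintype K := Fintype.ofFinite K
  obtain ⟨b, hb, hcov⟩ := exists_covered hM K hB
  rw [blockCoeff_eq_ext0 hM Q hQ hK hCK hb hB hcov, ext0_of_not_mem _ _ hg]

end NormP

end Cfsg.Agent.Lib.Helper29
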