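import Mathlib
import Cfsg.Agent.Lib.Helper29.NormP1
import Cfsg.Agent.Lib.Helper21.KeyLemma
import Cfsg.Agent.Lib.Helper11.AxB

set_option autoImplicit false
set_option linter.unusedSectionVars false

namespace Cfsg.Agent.Lib.Helper29

open scoped BigOperators ComplexConjugate
open Cfsg Cfsg.Agent.Lib.Helper20 Cfsg.Agent.Lib.Helper81 Cfsg.Agent.Lib.Helper5
  Cfsg.Agent.Lib.Helper21

namespace NormP

variable {G : Type*} [Group G] [Fintype G] {p : ℕ} [Fact p.Prime] {M : Ideal AlgInt}

/-- group theoretic part: a `p`-regular element of the chain normaliser centralising every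
`Q i ∩ N` centralises the chain. -/
theorem chain_centralizes (m : ℕ) (Q : Fin (m + 1) → Subgroup G)
    (hQ : StrictMono Q) (hQp : ∀ i, IsPGroup p (Q i)) (N : Subgroup G)
    (hN : ∀ g : G, g ∈ N ↔ ∀ i, g ∈ Subgroup.normalizer (Q i : Set G)) (n : G) (hnN : n ∈ N)
    (hreg : ¬ p ∣ orderOf n) (hc : ∀ i, ∀ x ∈ Q i, x ∈ N → x * n = n * x) (i : Fin (m + 1)) :
    n ∈ Subgroup.centralizer (Q i : Set G) := by
  have hp : p.Prime := Fact.out
  induction i using Fin.induction with
  | zero =>
    rw [Subgroup.mem_centralizer_iff]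
    intro x hx
    apply hc 0 x hx
    rw [hN]
    intro j
    exact Subgroup.le_normalizer (hQ.monotone (Fin.zero_le j) hx)
  | succ i ih =>
    have hD : (Nat.card (Subgroup.zpowers n)).Coprime p := by
      rw [Nat.card_zpowers, Nat.coprime_comm]
      exact (Nat.Prime.coprime_iff_not_dvd hp).2 hreg
    have h := Cfsg.Agent.Lib.Helper11.thompson_AxB (Q i.castSucc) (Subgroup.zpowers n)
      (hQp _) hD (Subgroup.zpowers_le.2 ih) (Q i.succ) (hQp _)
      (le_trans (hQ.monotone (Fin.castSucc_lt_succ).le) Subgroup.le_normalizer)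
      (Subgroup.zpowers_le.2 ((hN n).1 hnN _)) ?_
    · exact h (Subgroup.mem_zpowers n)
    · rw [Subgroup.zpowers_le, Subgroup.mem_centralizer_iff]
      intro x hx
      have hx1 : x ∈ Q i.succ := hx.1
      have hx2 : x ∈ Subgroup.centralizer (Q i.castSucc : Set G) := hx.2
      apply hc _ x hx1
      rw [hN]
      intro j
      rcases le_or_gt j i.castSucc with hj | hj
      · exact Subgroup.centralizer_le_normalizer _
          (Subgroup.centralizer_le (hQ.monotone hj) hx2)
      · exact Subgroup.le_normalizer (hQ.monotone (Fin.castSucc_lt_iff_succ_le.1 hj) hx1)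

theorem chain_support (hM : IsPModular p M) (m : ℕ) (Q : Fin (m + 1) → Subgroup G)
    (hQ : StrictMono Q) (hQp : ∀ i, IsPGroup p (Q i)) (N : Subgroup G)
    (hN : ∀ g : G, g ∈ N ↔ ∀ i, g ∈ Subgroup.normalizer (Q i : Set G))
    (E : Set (IrrCharacter N)) (hE : IsPBlock M E) (n : N) (hne : blockCoeff E n ≠ 0)
    (i : Fin (m + 1)) : (n : G) ∈ Subgroup.centralizer (Q i : Set G) := by
  classical
  have _ : Fintype N := Fintype.ofFinite N
  have hreg : ¬ p ∣ orderOf (n : G) := by
    rw [Subgroup.orderOf_coe]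
    intro h
    exact hne (blockCoeff_eq_zero_of_singular hM E hE h)
  refine chain_centralizes m Q hQ hQp N hN n n.2 hreg ?_ i
  intro j x hx hxN
  have hnorm : ((Q j).subgroupOf N).Normal :=
    Subgroup.normal_subgroupOf_of_le_normalizer (fun g hg => (hN g).1 hg j)
  have hpg : IsPGroup p ((Q j).subgroupOf N) :=
    (hQp j).comap_of_injective _ (Subgroup.subtype_injective _)
  have hmem : n ∈ Subgroup.centralizer (((Q j).subgroupOf N : Subgroup N) : Set N) := by
    by_contra hcon
    exact hne (blockCoeff_eq_zero_of_not_mem hM ((Q j).subgroupOf N) hpg inferInstance le_rfl hE hcon)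
  have := Subgroup.mem_centralizer_iff.1 hmem ⟨x, hxN⟩ (Subgroup.mem_subgroupOf.2 hx)
  exact congrArg Subtype.val this

end NormP

end Cfsg.Agent.Lib.Helper29
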