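import Mathlib
import Cfsg.Agent.Lib.Helper29.NormP1
import Cfsg.Agent.Lib.Helper21.Under
import Cfsg.Agent.Lib.Helper80.IrrIso

set_option autoImplicit false
set_option linter.unusedSectionVars false

namespace Cfsg.Agent.Lib.Helper29

open scoped BigOperators ComplexConjugate
open Cfsg Cfsg.Agent.Lib.Helper20 Cfsg.Agent.Lib.Helper81 Cfsg.Agent.Lib.Helper5
  Cfsg.Agent.Lib.Helper21

namespace NormP

variable {G : Type*} [Group G] [Fintype G] {p : ℕ} {M : Ideal AlgInt}

section count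
variable {N : Subgroup G} [Fintype N]

/-- if one member of a block is moved into the block, then all are -/
theorem cjIrr_mem_of_mem (hM : IsPModular p M) (hN : N.Normal) {b : Set (IrrCharacter N)}
    (hb : IsPBlock M b) {t : G} {θ₀ : IrrCharacter N} (h0 : θ₀ ∈ b) (h1 : cjIrr hN t θ₀ ∈ b)
    {θ : IrrCharacter N} (hθ : θ ∈ b) : cjIrr hN t θ ∈ b := by
  have h2 := sameBlock_cjF hN (isPBlock_sameBlock hM hb h0 hθ) t
  rw [← cjIrr_coe, ← cjIrr_coe] at h2
  rw [isPBlock_eq_blockOf hM hb h1]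
  exact h2

open Classical in
theorem count_stab (hM : IsPModular p M) (hN : N.Normal) {b : Set (IrrCharacter N)}
    (hb : IsPBlock M b) (T : Subgroup G) (hT : ∀ x : G, x ∈ T ↔ ∀ θ ∈ b, cjIrr hN x θ ∈ b)
    (φ : IrrCharacter N) :
    (∑ x : G, if cjIrr hN x⁻¹ φ ∈ b then (1 : ℂ) else 0) =
      if φ ∈ conjClosure hN b then (Nat.card T : ℂ) else 0 := by
  by_cases h : φ ∈ conjClosure hN b
  · rw [if_pos h]
    obtain ⟨g, hg⟩ := (mem_conjClosure hN b φ).1 h
    have h1 : ∀ x : G, cjIrr hN x⁻¹ φ ∈ b ↔ g⁻¹ * x⁻¹ ∈ T := by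
      intro x
      have e1 : cjIrr hN x⁻¹ φ = cjIrr hN (g⁻¹ * x⁻¹) (cjIrr hN g φ) := by
        rw [cjIrr_cjIrr, mul_inv_cancel_left]
      rw [e1, hT]
      exact ⟨fun h2 θ hθ => cjIrr_mem_of_mem hM hN hb hg h2 hθ, fun h2 => h2 _ hg⟩
    have h2 : (∑ x : G, if cjIrr hN x⁻¹ φ ∈ b then (1 : ℂ) else 0) =
        ∑ y : G, if y ∈ T then (1 : ℂ) else 0 := by
      refine Fintype.sum_equiv ((Equiv.inv G).trans (Equiv.mulLeft g⁻¹)) _ _ (fun x => ?_)
      exact if_congr (h1 x) rfl rfl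
    rw [h2, Finset.sum_boole, Nat.card_eq_fintype_card, Fintype.card_subtype]
  · rw [if_neg h]
    apply Finset.sum_eq_zero
    intro x _
    apply if_neg
    intro h2
    exact h ((mem_conjClosure hN b φ).2 ⟨_, h2⟩)

/-- the orbit idempotent as an average over the group -/
theorem sum_cjF_blockCoeff (hM : IsPModular p M) (hN : N.Normal) {b : Set (IrrCharacter N)}
    (hb : IsPBlock M b) (T : Subgroup G) (hT : ∀ x : G, x ∈ T ↔ ∀ θ ∈ b, cjIrr hN x θ ∈ b)
    (n : N) :
    ∑ x : G, cjF hN (blockCoeff b) x n = (Nat.card T : ℂ) * blockCoeff (conjClosure hN b) n := by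
  classical
  have _ : Finite (IrrCharacter N) := finite_irrCharacter
  have _ : Fintype (IrrCharacter N) := Fintype.ofFinite _
  have h1 : ∀ x : G, cjF hN (blockCoeff b) x n = (Nat.card N : ℂ)⁻¹ *
      ∑ φ : IrrCharacter N, (if cjIrr hN x⁻¹ φ ∈ b then (1 : ℂ) else 0) *
        ((φ : N → ℂ) 1 * conj ((φ : N → ℂ) n)) := by
    intro x
    rw [cjF_apply, blockCoeff, finsum_mem_irr]
    congr 1
    conv_rhs => rw [← Equiv.sum_comp (cjEquiv hN x)]
    apply Finset.sum_congr rfl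
    intro ψ _
    have e1 : cjEquiv hN x ψ = cjIrr hN x ψ := rfl
    rw [e1, cjIrr_cjIrr, mul_inv_cancel, cjIrr_one]
    by_cases hψ : ψ ∈ b
    · rw [if_pos hψ, if_pos hψ, one_mul, cjIrr_coe, cjF_apply, cjF_apply]
      congr 2
      apply congrArg
      apply Subtype.ext
      simp
    · rw [if_neg hψ, if_neg hψ, zero_mul]
  have h2 : ∑ x : G, cjF hN (blockCoeff b) x n = ∑ x : G, (Nat.card N : ℂ)⁻¹ *
      ∑ φ : IrrCharacter N, (if cjIrr hN x⁻¹ φ ∈ b then (1 : ℂ) else 0) *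
        ((φ : N → ℂ) 1 * conj ((φ : N → ℂ) n)) := Finset.sum_congr rfl (fun x _ => h1 x)
  rw [h2, ← Finset.mul_sum, Finset.sum_comm, blockCoeff, finsum_mem_irr, mul_left_comm]
  congr 1
  rw [Finset.mul_sum]
  apply Finset.sum_congr rfl
  intro φ _
  rw [← Finset.sum_mul, count_stab hM hN hb T hT φ]
  by_cases hφ : φ ∈ conjClosure hN b
  · rw [if_pos hφ, if_pos hφ]
  · rw [if_neg hφ, if_neg hφ, zero_mul, mul_zero]

end count

section pairs
variable [Fact p.Prime]

/-- For a normal `p`-subgroup, a Brauer pair of `B` is a covered block of the centraliser. -/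
theorem covers_of_isBrauerPairOf (hM : IsPModular p M) (P : Subgroup G) [P.Normal]
    [Fintype (Subgroup.centralizer (P : Set G))]
    {B : Set (IrrCharacter G)} {e : Set (IrrCharacter (Subgroup.centralizer (P : Set G)))}
    (hBe : IsBrauerPairOf p M B P e) : Covers (Subgroup.centralizer (P : Set G)) B e := by
  classical
  obtain ⟨⟨hP, he⟩, hB, hom⟩ := hBe
  have hC : (Subgroup.centralizer (P : Set G)).Normal := inferInstance
  obtain ⟨b, hb, hcov⟩ := exists_covered hM (Subgroup.centralizer (P : Set G)) hB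
  have h1 := blockCoeff_eq_ext0 hM P hP hC le_rfl hb hB hcov
  obtain ⟨ξ, hξ⟩ := isPBlock_nonempty hM he
  have h2 := hom ξ hξ
  have h3 : brauerOmega P (blockCoeff B) (ξ : Subgroup.centralizer (P : Set G) → ℂ) =
      omega (ξ : Subgroup.centralizer (P : Set G) → ℂ) (blockCoeff (conjClosure hC b)) := by
    unfold brauerOmega omega
    rw [finsum_eq_sum_of_fintype, h1]
    apply Finset.sum_congr rfl
    intro x _
    rw [ext0_coe]
  rw [h3, omega_blockCoeff] at h2
  have h4 : ξ ∈ conjClosure hC b := by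
    by_contra hcon
    rw [if_neg hcon, zero_sub] at h2
    have := memLocalIdeal_neg h2
    rw [neg_neg] at this
    exact not_memLocalIdeal_one hM this
  obtain ⟨g, hg⟩ := (mem_conjClosure hC b ξ).1 h4
  obtain ⟨χ, hχ, hcon⟩ := exists_over_of_covers hM hC hB hb hcov hg
  rw [constituent_cjIrr] at hcon
  exact ⟨χ, hχ, ξ, hξ, hcon⟩

omit [Fintype G] [Fact p.Prime] in
theorem stabilizesBlock_iff_cjIrr {N : Subgroup G} [Finite N] (hN : N.Normal)
    (e : Set (IrrCharacter N)) (x : G) :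
    StabilizesBlock N e x ↔ ∀ χ ∈ e, cjIrr hN x⁻¹ χ ∈ e := by
  constructor
  · rintro ⟨_, h⟩ χ hχ
    obtain ⟨χ', hχ', hrel⟩ := h χ hχ
    have : cjIrr hN x⁻¹ χ = χ' := by
      apply Subtype.ext
      funext n
      rw [cjIrr_coe, cjF_apply]
      refine (hrel _ n ?_).symm
      simp [mul_assoc]
    rw [this]; exact hχ'
  · intro h
    refine ⟨?_, fun χ hχ => ⟨_, h χ hχ, ?_⟩⟩
    · rw [Subgroup.normalizer_eq_top]; exact Subgroup.mem_top x
    · intro k k' hk
      rw [cjIrr_coe, cjF_apply]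
      apply congrArg
      apply Subtype.ext
      simp [hk, mul_assoc]

/-- the block idempotent as the average of the conjugates of the idempotent of a covered block -/
theorem blockCoeff_eq_average (hM : IsPModular p M) (Q : Subgroup G) [Q.Normal]
    (hQ : IsPGroup p Q) {K : Subgroup G} (hK : K.Normal)
    (hCK : Subgroup.centralizer (Q : Set G) ≤ K) [Fintype K] {b : Set (IrrCharacter K)}
    (hb : IsPBlock M b)
    {B : Set (IrrCharacter G)} (hB : IsPBlock M B) (h : Covers K B b)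
    (T : Subgroup G) (hT : ∀ x : G, x ∈ T ↔ StabilizesBlock K b x) (g : G) :
    blockCoeff B g = (Nat.card T : ℂ)⁻¹ * ∑ x : G, subgroupBlockCoeff K b (x⁻¹ * g * x) := by
  classical
  have hT' : ∀ x : G, x ∈ T ↔ ∀ θ ∈ b, cjIrr hK x θ ∈ b := by
    intro x
    rw [← inv_mem_iff, hT, stabilizesBlock_iff_cjIrr hK, inv_inv]
  have hT0 : (Nat.card T : ℂ) ≠ 0 := Nat.cast_ne_zero.2 Nat.card_pos.ne'
  rw [blockCoeff_eq_ext0 hM Q hQ hK hCK hb hB h]
  by_cases hg : g ∈ K
  · rw [ext0_of_mem _ _ hg, eq_inv_mul_iff_mul_eq₀ hT0, ← sum_cjF_blockCoeff hM hK hb T hT']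
    refine Fintype.sum_equiv (Equiv.inv G) _ _ (fun x => ?_)
    have e1 : Equiv.inv G x = x⁻¹ := rfl
    rw [e1, cjF_apply]
    unfold subgroupBlockCoeff
    have hmem : x⁻¹⁻¹ * g * x⁻¹ ∈ K := by
      rw [inv_inv]; exact hK.conj_mem g hg x
    rw [dif_pos hmem]
    congr 1
    apply Subtype.ext
    simp
  · rw [ext0_of_not_mem _ _ hg, Finset.sum_eq_zero, mul_zero]
    intro x _
    unfold subgroupBlockCoeff
    apply dif_neg
    intro hmem
    apply hg
    have := hK.conj_mem _ hmem x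
    simpa [mul_assoc] using this

/-- the idempotent of `b` is a block idempotent of the stabiliser of `b` -/
theorem exists_block_stabilizer (hM : IsPModular p M) (Q : Subgroup G) [Q.Normal]
    (hQ : IsPGroup p Q) {K : Subgroup G} (hK : K.Normal)
    (hCK : Subgroup.centralizer (Q : Set G) ≤ K) {b : Set (IrrCharacter K)}
    (hb : IsPBlock M b)
    (T : Subgroup G) (hT : ∀ x : G, x ∈ T ↔ StabilizesBlock K b x) (hQT : Q ≤ T) :
    ∃ E : Set (IrrCharacter T), IsPBlock M E ∧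
      ∀ t : T, blockCoeff E t = subgroupBlockCoeff K b (t : G) := by
  classical
  have _ : Fintype K := Fintype.ofFinite K
  have _ : Fintype T := Fintype.ofFinite T
  have _ : Fintype (K.subgroupOf T) := Fintype.ofFinite _
  have hT' : ∀ x : G, x ∈ T ↔ ∀ θ ∈ b, cjIrr hK x θ ∈ b := by
    intro x
    rw [← inv_mem_iff, hT, stabilizesBlock_iff_cjIrr hK, inv_inv]
  have hKT : K ≤ T := by
    intro k hk
    rw [hT']
    intro θ hθ
    rw [cjIrr_of_mem hK hk]; exact hθ
  have hK' : (K.subgroupOf T).Normal := inferInstance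
  have hQ' : IsPGroup p (Q.subgroupOf T) := hQ.comap_of_injective _ (Subgroup.subtype_injective _)
  have hCK' : Subgroup.centralizer ((Q.subgroupOf T : Subgroup T) : Set T) ≤ K.subgroupOf T := by
    intro t ht
    rw [Subgroup.mem_subgroupOf]
    apply hCK
    rw [Subgroup.mem_centralizer_iff]
    intro u hu
    have := Subgroup.mem_centralizer_iff.1 ht ⟨u, hQT hu⟩ (Subgroup.mem_subgroupOf.2 hu)
    exact congrArg Subtype.val this
  obtain ⟨φ, hφ⟩ : ∃ φ : K.subgroupOf T ≃* K, ∀ k, ((φ k : K) : G) = ((k : T) : G) :=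
    ⟨Subgroup.subgroupOfEquivOfLe hKT, fun k => rfl⟩
  have hb' : IsPBlock M (Cfsg.Agent.Lib.Helper80.irrMap φ '' b) :=
    Cfsg.Agent.Lib.Helper80.isPBlock_image φ hb
  have hinv : ∀ t : T, ∀ θ ∈ Cfsg.Agent.Lib.Helper80.irrMap φ '' b,
      cjIrr hK' t θ ∈ Cfsg.Agent.Lib.Helper80.irrMap φ '' b := by
    rintro t _ ⟨θ, hθ, rfl⟩
    refine ⟨cjIrr hK (t : G) θ, (hT' t).1 t.2 θ hθ, ?_⟩
    apply Subtype.ext
    funext k
    rw [Cfsg.Agent.Lib.Helper80.irrMap_apply, cjIrr_coe, cjIrr_coe, cjF_apply, cjF_apply,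
      Cfsg.Agent.Lib.Helper80.irrMap_apply]
    apply congrArg
    apply Subtype.ext
    show (t : G) * ((φ k : K) : G) * (t : G)⁻¹ = _
    rw [hφ, hφ]
    rfl
  have h1 := (overSet_isPBlock_of_unique hM hK' hb' hinv (fun B B' hB hB' h h' =>
    covers_unique_of_centralizer_le hM (Q.subgroupOf T) hQ' hK' hCK' hb' hB hB' h h')).1
  refine ⟨_, h1, fun t => ?_⟩
  have h2 := ext0_conjClosure_eq_blockCoeff_overSet hK' (Cfsg.Agent.Lib.Helper80.irrMap φ '' b)
  rw [conjClosure_eq_of_invariant hK' hinv] at h2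
  rw [← h2]
  unfold subgroupBlockCoeff
  by_cases ht : (t : G) ∈ K
  · rw [dif_pos ht, ext0_of_mem _ _ (Subgroup.mem_subgroupOf.2 ht),
      Cfsg.Agent.Lib.Helper80.blockCoeff_image]
    apply congrArg
    apply Subtype.ext
    rw [hφ]
  · rw [dif_neg ht, ext0_of_not_mem]
    exact fun h => ht (Subgroup.mem_subgroupOf.1 h)

end pairs

end NormP

end Cfsg.Agent.Lib.Helper29
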