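import Mathlib
import Cfsg.Agent.Lib.Helper80.GA

set_option autoImplicit false
set_option linter.unusedSectionVars false

namespace Cfsg.Agent.Lib.Helper29

open scoped BigOperators
open Cfsg.Agent.Lib.Helper80

namespace Rob

open GA

section perm
variable {k : Type*} {G : Type*} [Field k] [Group G] [Fintype G]
variable {X : Type*} [Fintype X] [DecidableEq X] [MulAction G X]

/-- the permutation representation of the group algebra on `k^X`, as matrices -/
noncomputable def prep (X : Type*) [Fintype X] [DecidableEq X] [MulAction G X] (a : GA k G) :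
    Matrix X X k :=
  Matrix.of fun x y => ∑ h : G, if h • y = x then a h else 0

theorem prep_apply (a : GA k G) (x y : X) :
    prep X a x y = ∑ h : G, if h • y = x then a h else 0 := rfl

theorem prep_mul (a b : GA k G) : prep X (a * b) = prep X a * prep X b := by
  ext x z
  rw [Matrix.mul_apply, prep_apply]
  simp only [prep_apply, GA.mul_apply]
  -- LHS: ∑ m, if m • z = x then ∑ h, a h * b (h⁻¹ * m) else 0
  have h1 : ∀ m : G, (if m • z = x then ∑ h : G, a h * b (h⁻¹ * m) else 0) =
      ∑ h : G, if m • z = x then a h * b (h⁻¹ * m) else 0 := by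
    intro m
    split_ifs
    · rfl
    · simp
  have e1 : (∑ m : G, if m • z = x then ∑ h : G, a h * b (h⁻¹ * m) else 0) =
      ∑ m : G, ∑ h : G, if m • z = x then a h * b (h⁻¹ * m) else 0 :=
    Finset.sum_congr rfl (fun m _ => h1 m)
  rw [e1, Finset.sum_comm]
  have h2 : ∀ y : X, (∑ h : G, if h • y = x then a h else 0) * (∑ g : G, if g • z = y then b g else 0)
      = ∑ h : G, ∑ g : G, (if h • y = x ∧ g • z = y then a h * b g else (0 : k)) := by
    intro y
    rw [Finset.sum_mul_sum]
    refine Finset.sum_congr rfl (fun h _ => Finset.sum_congr rfl (fun g _ => ?_))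
    by_cases c1 : h • y = x <;> by_cases c2 : g • z = y <;> simp [c1, c2]
  have e2 : (∑ y : X, (∑ h : G, if h • y = x then a h else 0) *
      (∑ g : G, if g • z = y then b g else 0)) =
      ∑ y : X, ∑ h : G, ∑ g : G, (if h • y = x ∧ g • z = y then a h * b g else (0 : k)) :=
    Finset.sum_congr rfl (fun y _ => h2 y)
  rw [e2]
  conv_rhs => rw [Finset.sum_comm]
  refine Finset.sum_congr rfl (fun h _ => ?_)
  conv_rhs => rw [Finset.sum_comm]
  refine Fintype.sum_equiv (Equiv.mulLeft h⁻¹) _ _ (fun m => ?_)
  simp only [Equiv.coe_mulLeft]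
  rw [Finset.sum_eq_single ((h⁻¹ * m) • z)]
  · have : h • (h⁻¹ * m) • z = m • z := by rw [smul_smul, mul_inv_cancel_left]
    simp only [this, and_true]
  · intro y _ hy
    apply if_neg
    rintro ⟨_, h4⟩
    exact hy h4.symm
  · intro h; exact absurd (Finset.mem_univ _) h

theorem prep_zero : prep X (0 : GA k G) = 0 := by
  ext x y
  simp [prep_apply]

theorem prep_one : prep X (1 : GA k G) = 1 := by
  classical
  ext x y
  rw [prep_apply, Finset.sum_eq_single 1]
  · rw [one_smul, GA.one_apply, if_pos rfl, Matrix.one_apply]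
    by_cases h : x = y
    · rw [if_pos h, if_pos h.symm]
    · rw [if_neg h, if_neg (Ne.symm h)]
  · intro h _ hh
    rw [GA.one_apply, if_neg hh]; simp
  · intro h; exact absurd (Finset.mem_univ _) h

theorem prep_pow (a : GA k G) (n : ℕ) : prep X (a ^ n) = prep X a ^ n := by
  induction n with
  | zero => rw [pow_zero, pow_zero, prep_one]
  | succ m ih => rw [pow_succ, pow_succ, prep_mul, ih]

/-- number of fixed points -/
def fixN (X : Type*) [Fintype X] [DecidableEq X] [MulAction G X] (h : G) : ℕ :=
  (Finset.univ.filter (fun x : X => h • x = x)).card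

theorem trace_prep (a : GA k G) : (prep X a).trace = ∑ h : G, a h * (fixN X h : k) := by
  unfold Matrix.trace
  simp only [Matrix.diag_apply, prep_apply]
  rw [Finset.sum_comm]
  refine Finset.sum_congr rfl (fun h _ => ?_)
  rw [← Finset.sum_filter, Finset.sum_const, fixN, nsmul_eq_mul, mul_comm]

/-- **Trace lemma**: a nilpotent element of the group algebra is orthogonal to every permutation
character. -/
theorem sum_mul_fixN_eq_zero {a : GA k G} (ha : IsNilpotent a) :
    ∑ h : G, a h * (fixN X h : k) = 0 := by
  rw [← trace_prep]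
  obtain ⟨n, hn⟩ := ha
  have h1 : IsNilpotent (prep X a) := ⟨n, by rw [← prep_pow, hn, prep_zero]⟩
  exact (Matrix.isNilpotent_trace_of_isNilpotent h1).eq_zero

theorem fixN_inv (h : G) : fixN X h⁻¹ = fixN X h := by
  unfold fixN
  congr 1
  ext x
  simp only [Finset.mem_filter, Finset.mem_univ, true_and]
  rw [inv_smul_eq_iff]
  exact eq_comm

theorem fixN_conj (t h : G) : fixN X (t * h * t⁻¹) = fixN X h := by
  unfold fixN
  refine Finset.card_bij' (fun x _ => t⁻¹ • x) (fun x _ => t • x) ?_ ?_ ?_ ?_
  · intro x hx
    simp only [Finset.mem_filter, Finset.mem_univ, true_and] at hx ⊢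
    have : t⁻¹ • ((t * h * t⁻¹) • x) = t⁻¹ • x := by rw [hx]
    rw [smul_smul] at this
    rw [smul_smul]
    convert this using 2
    group
  · intro x hx
    simp only [Finset.mem_filter, Finset.mem_univ, true_and] at hx ⊢
    rw [smul_smul, inv_mul_cancel_right, mul_smul, hx]
  · intro x _; simp
  · intro x _; simp

end perm

section rank
variable {F K : Type*} [Field F] [Field K] {m : Type*} [Fintype m] [DecidableEq m]

/-- the rank of a square matrix does not change under a field extension -/
theorem rank_map_eq (f : F →+* K) (A : Matrix m m F) : (A.map f).rank = A.rank := by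
  classical
  obtain ⟨L, L', D, hA⟩ := Matrix.Pivot.exists_list_transvec_mul_diagonal_mul_list_transvec A
  have hdet : ∀ l : List (Matrix.TransvectionStruct m F),
      IsUnit ((l.map Matrix.TransvectionStruct.toMatrix).prod).det := by
    intro l
    rw [Matrix.TransvectionStruct.det_toMatrix_prod]
    exact isUnit_one
  have hr : A.rank = (Matrix.diagonal D).rank := by
    rw [hA, Matrix.rank_mul_eq_left_of_isUnit_det _ _ (hdet L'),
      Matrix.rank_mul_eq_right_of_isUnit_det _ _ (hdet L)]
  have hmapdet : ∀ B : Matrix m m F, IsUnit B.det → IsUnit (B.map f).det := by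
    intro B hB
    have : (B.map f).det = f B.det := by
      rw [RingHom.map_det]; rfl
    rw [this]
    exact hB.map f
  have hr' : (A.map f).rank = ((Matrix.diagonal D).map f).rank := by
    rw [hA, Matrix.map_mul, Matrix.map_mul,
      Matrix.rank_mul_eq_left_of_isUnit_det _ _ (hmapdet _ (hdet L')),
      Matrix.rank_mul_eq_right_of_isUnit_det _ _ (hmapdet _ (hdet L))]
  rw [hr, hr', Matrix.diagonal_map (map_zero f), Matrix.rank_diagonal, Matrix.rank_diagonal]
  apply Fintype.card_congr
  refine Equiv.subtypeEquivRight (fun i => ?_)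
  simp only [ne_eq, map_eq_zero]

end rank

end Rob

end Cfsg.Agent.Lib.Helper29
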