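import Mathlib
import Cfsg.Agent.Lib.Helper29.RobTrace
import Cfsg.Agent.Lib.Helper29.PConstr1

set_option autoImplicit false
set_option linter.unusedSectionVars false

namespace Cfsg.Agent.Lib.Helper29

open scoped BigOperators Matrix
open Cfsg Cfsg.Agent.Lib.Helper80

namespace Rob

open GA Kn

variable {k : Type*} {G : Type*} [Field k] [Group G] [Fintype G]

/-- the value of the central character of the block `b` at `z` -/
noncomputable def lam (b z : GA k G) : k := by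
  classical exact if h : ∃ c : k, IsNilpotent (z * b - c • b) then h.choose else 0

theorem lam_spec {b z : GA k G} (h : ∃ c : k, IsNilpotent (z * b - c • b)) :
    IsNilpotent (z * b - lam b z • b) := by
  unfold lam
  rw [dif_pos h]
  exact h.choose_spec

theorem lam_eq {b z : GA k G} (hb : IsBlk ⊤ b) (hz : InZ ⊤ z) {c : k}
    (h : IsNilpotent (z * b - c • b)) : lam b z = c := by
  have h1 := lam_spec ⟨c, h⟩
  by_contra hne
  apply hb.not_nilpotent
  have hZ : ∀ d : k, InZ ⊤ (z * b - d • b) := fun d => (hz.mul hb.inZ).sub (hb.inZ.smul d)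
  have hc : Commute (z * b - c • b) (z * b - lam b z • b) := (hZ c).comm (hZ _)
  have h2 : IsNilpotent ((z * b - c • b) - (z * b - lam b z • b)) := hc.isNilpotent_sub h h1
  have h3 : (z * b - c • b) - (z * b - lam b z • b) = (lam b z - c) • b := by
    rw [sub_smul]; abel
  rw [h3] at h2
  obtain ⟨n, hn⟩ := h2
  refine ⟨n, ?_⟩
  rw [smul_pow] at hn
  have h4 : (lam b z - c) ^ n ≠ 0 := pow_ne_zero _ (sub_ne_zero.2 hne)
  exact (smul_eq_zero.1 hn).resolve_left h4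

theorem lam_sum {b : GA k G} (hb : IsBlk ⊤ b)
    (hsp : ∀ z, InZ ⊤ z → ∃ c : k, IsNilpotent (z * b - c • b)) {ι : Type*} (s : Finset ι)
    (a : ι → k) (z : ι → GA k G) (hz : ∀ i ∈ s, InZ ⊤ (z i)) :
    lam b (∑ i ∈ s, a i • z i) = ∑ i ∈ s, a i * lam b (z i) := by
  apply lam_eq hb (InZ.sum _ _ (fun i hi => (hz i hi).smul _))
  have h1 : (∑ i ∈ s, a i • z i) * b - (∑ i ∈ s, a i * lam b (z i)) • b =
      ∑ i ∈ s, a i • (z i * b - lam b (z i) • b) := by
    rw [Finset.sum_mul, Finset.sum_smul, ← Finset.sum_sub_distrib]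
    refine Finset.sum_congr rfl (fun i _ => ?_)
    rw [smul_sub, smul_mul_assoc, mul_smul]
  rw [h1]
  have hZ : ∀ i ∈ s, InZ ⊤ (a i • (z i * b - lam b (z i) • b)) := fun i hi =>
    (((hz i hi).mul hb.inZ).sub (hb.inZ.smul _)).smul _
  apply Commute.isNilpotent_sum
  · intro i hi
    obtain ⟨n, hn⟩ := lam_spec (hsp (z i) (hz i hi))
    exact ⟨n, by rw [smul_pow, hn, smul_zero]⟩
  · intro i j hi hj
    exact (hZ i hi).comm (hZ j hj)

variable {p : ℕ} [Fact p.Prime] [CharP k p]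

/-- a `p`-regular element whose centraliser has the normal `p`-subgroup `D` as Sylow subgroup -/
def Good (p : ℕ) (D : Subgroup G) (g : G) : Prop :=
  ¬ p ∣ orderOf g ∧ g ∈ Cn D ∧
    ∀ R : Subgroup G, (∀ s ∈ R, s * g = g * s) → IsPGroup p R → R ≤ D

theorem mul_nilpotent_apply {Θ n : GA k G}
    (hΘ1 : ∀ a : GA k G, IsNilpotent a → ∑ h : G, a h * Θ h = 0) (hΘi : ∀ h, Θ h⁻¹ = Θ h)
    (hn : InZ ⊤ n) (hnn : IsNilpotent n) (x : G) : (Θ * n) x = 0 := by
  have hc : Commute n (of x⁻¹ : GA k G) :=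
    (commute_of_suppOn_fixBy (H := ⊤) (fun g hg => absurd (Subgroup.mem_top g) hg) hn.2).symm
  have h1 := hΘ1 (n * of x⁻¹) (hc.isNilpotent_mul_right hnn)
  rw [GA.mul_apply]
  rw [← h1]
  refine Fintype.sum_equiv (Equiv.inv G) _ _ (fun g => ?_)
  simp only [Equiv.inv_apply]
  rw [mul_of_apply, inv_inv, hΘi, mul_comm]

/-- the key formula -/
theorem theta_mul_apply {Θ : GA k G} {c₀ : k}
    (hsp : ∀ b : GA k G, IsBlk ⊤ b → ∀ z, InZ ⊤ z → ∃ c : k, IsNilpotent (z * b - c • b))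
    (hΘ1 : ∀ a : GA k G, IsNilpotent a → ∑ h : G, a h * Θ h = 0) (hΘi : ∀ h, Θ h⁻¹ = Θ h)
    (hΘ2 : ∀ b : GA k G, IsBlk ⊤ b → ∀ x : G, ¬ p ∣ orderOf x → (Θ * b) x = c₀ * b x)
    {z : GA k G} (hz : InZ ⊤ z) {x : G} (hx : ¬ p ∣ orderOf x) :
    (Θ * z) x = c₀ * ∑ b ∈ blks k (⊤ : Subgroup G), lam b z * b x := by
  have h1 : Θ * z = ∑ b ∈ blks k (⊤ : Subgroup G), Θ * (z * b) := by
    rw [← Finset.mul_sum, ← Finset.mul_sum, sum_blks, mul_one]
  rw [h1, GA.sum_apply, Finset.mul_sum]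
  refine Finset.sum_congr rfl (fun b hb => ?_)
  have hb' := mem_blks.1 hb
  have h2 := lam_spec (hsp b hb' z hz)
  have h3 : z * b = lam b z • b + (z * b - lam b z • b) := by abel
  rw [h3, mul_add, GA.add_apply,
    mul_nilpotent_apply hΘ1 hΘi ((hz.mul hb'.inZ).sub (hb'.inZ.smul _)) h2, add_zero,
    mul_smul_comm, GA.smul_apply, hΘ2 b hb' x hx]
  ring

theorem le_of_normal_isDef {D P : Subgroup G} [D.Normal] (hD : IsPGroup p D) {b : GA k G}
    (hb : IsBlk ⊤ b) (hP : IsDef p ⊤ b P) : D ≤ P := by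
  have hN : (⊤ : Subgroup G) ≤ Nn D := by
    intro x _
    show x ∈ Subgroup.normalizer (D : Set G)
    rw [Subgroup.normalizer_eq_top]; exact Subgroup.mem_top x
  have h1 : br D b = b := br_eq_self_of_idem hD le_top hN hb.inZ hb.idem
  obtain ⟨x, _, hle⟩ := hP.zd.le_conj_of_br_ne le_top hD (by rw [h1]; exact hb.ne_zero)
  intro d hd
  have h2 : x * d * x⁻¹ ∈ cS x P := hle ((inferInstance : D.Normal).conj_mem d hd x)
  rw [mem_cS] at h2
  simpa [mul_assoc] using h2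

/-- only blocks with defect group `D` see the good classes -/
theorem isDef_of_lam_ne_zero {D : Subgroup G} [D.Normal] (hD : IsPGroup p D) {b : GA k G}
    (hb : IsBlk ⊤ b) (hsp : ∀ z, InZ ⊤ z → ∃ c : k, IsNilpotent (z * b - c • b)) {x : G}
    (hx : Good p D x) (hne : lam b (cls ⊤ x) ≠ 0) : IsDef p ⊤ b D := by
  obtain ⟨P, hP⟩ := hb.exists_isDef (p := p)
  have hDP : D ≤ P := le_of_normal_isDef hD hb hP
  have hcZ : InZ ⊤ (cls ⊤ x : GA k G) := cls_inZ (Subgroup.mem_top x)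
  have h1 := lam_spec (hsp _ hcZ)
  have hfix : ∀ {z : GA k G}, InZ ⊤ z → FixBy P z := fun hz => hz.2.mono le_top
  have h2 : br P (cls ⊤ x : GA k G) ≠ 0 := by
    intro h0
    have h3 := isNilpotent_br hP.pgroup (hfix ((hcZ.mul hb.inZ).sub (hb.inZ.smul _))) h1
    rw [br_sub, br_mul hP.pgroup (hfix hcZ) (hfix hb.inZ), h0, zero_mul, zero_sub, br_smul] at h3
    apply hP.br_ne
    apply eq_zero_of_idem_of_nilpotent (br_idem hP.pgroup (hfix hb.inZ) hb.idem)
    obtain ⟨n, hn⟩ := h3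
    refine ⟨n, ?_⟩
    rw [neg_pow, smul_pow] at hn
    have h4 : (lam b (cls ⊤ x)) ^ n ≠ 0 := pow_ne_zero _ hne
    have h5 : (lam b (cls ⊤ x)) ^ n • br P b ^ n = 0 := by
      rcases neg_one_pow_eq_or (GA k G) n with h | h
      · rwa [h, one_mul] at hn
      · rw [h, neg_one_mul, neg_eq_zero] at hn; exact hn
    exact (smul_eq_zero.1 h5).resolve_left h4
  have hex : ∃ g, br P (cls ⊤ x : GA k G) g ≠ 0 := by
    by_contra hcon
    push Not at hcon
    exact h2 (GA.ext hcon)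
  obtain ⟨g, hg⟩ := hex
  have hgC : g ∈ Cn P := by
    by_contra hn
    exact hg (br_apply_not_mem _ hn)
  rw [br_apply_mem _ hgC] at hg
  obtain ⟨t, _, rfl⟩ := cls_apply_ne_zero hg
  have h3 : cS t⁻¹ P ≤ D := by
    apply hx.2.2 _ _ (hP.pgroup.map _)
    intro s hs
    rw [mem_cS, inv_inv] at hs
    have h4 := mem_Cn.1 hgC _ hs
    have h5 : t * (s * x) * t⁻¹ = t * (x * s) * t⁻¹ := by
      calc t * (s * x) * t⁻¹ = t * s * t⁻¹ * (t * x * t⁻¹) := by group
        _ = t * x * t⁻¹ * (t * s * t⁻¹) := h4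
        _ = t * (x * s) * t⁻¹ := by group
    exact mul_left_cancel (mul_right_cancel h5)
  have h4 : P = D := by
    apply (Subgroup.eq_of_le_of_card_ge hDP _).symm
    calc Nat.card P = Nat.card (cS t⁻¹ P) := (card_cS _ _).symm
      _ ≤ Nat.card D := Subgroup.card_le_of_le h3
  rwa [h4] at hP

theorem good_of_ne_zero (hos : Osima p k G) {D : Subgroup G} [D.Normal] {b : GA k G}
    (hb : IsBlk ⊤ b) (hdef : IsDef p ⊤ b D) {g : G} (hg : b g ≠ 0) : Good p D g := by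
  have hN : (⊤ : Subgroup G) ≤ Nn D := by
    intro x _
    show x ∈ Subgroup.normalizer (D : Set G)
    rw [Subgroup.normalizer_eq_top]; exact Subgroup.mem_top x
  refine ⟨fun h => hg (hos ⊤ b hb g h), ?_, ?_⟩
  · by_contra hn
    apply hg
    rw [← br_eq_self_of_idem hdef.pgroup le_top hN hb.inZ hb.idem]
    exact br_apply_not_mem _ hn
  · intro R hR hRp
    obtain ⟨t, _, hle⟩ := hdef.zd g hg R le_top hRp hR
    rwa [cS_normal D t] at hle

/-- **Robinson's theorem**, abstract form. -/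
theorem rank_eq_card (hos : Osima p k G)
    (hsp : ∀ b : GA k G, IsBlk ⊤ b → ∀ z, InZ ⊤ z → ∃ c : k, IsNilpotent (z * b - c • b))
    {Θ : GA k G} {c₀ : k} (hc₀ : c₀ ≠ 0)
    (hΘ1 : ∀ a : GA k G, IsNilpotent a → ∑ h : G, a h * Θ h = 0) (hΘi : ∀ h, Θ h⁻¹ = Θ h)
    (hΘ2 : ∀ b : GA k G, IsBlk ⊤ b → ∀ x : G, ¬ p ∣ orderOf x → (Θ * b) x = c₀ * b x)
    {D : Subgroup G} [D.Normal] (hD : IsPGroup p D) {ι : Type*} [Fintype ι] [DecidableEq ι]
    (x : ι → G) (hgood : ∀ i, Good p D (x i))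
    (hinj : ∀ i j, (∃ t : G, x j = t * x i * t⁻¹) → i = j)
    (hsurj : ∀ g, Good p D g → ∃ i, ∃ t : G, g = t * x i * t⁻¹) :
    (Matrix.of fun i j : ι => (Θ * cls ⊤ (x j) : GA k G) (x i)).rank =
      Nat.card {b : GA k G // IsBlk ⊤ b ∧ IsDef p ⊤ b D} := by
  classical
  have hfin : Finite {b : GA k G // IsBlk ⊤ b ∧ IsDef p ⊤ b D} :=
    Finite.of_injective
      (fun b => (⟨b.1, mem_blks.2 b.2.1⟩ : {b : GA k G // b ∈ blks k (⊤ : Subgroup G)}))
      (fun a b h => Subtype.ext (congrArg (fun t => t.1) h))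
  have _ : Fintype {b : GA k G // IsBlk ⊤ b ∧ IsDef p ⊤ b D} := Fintype.ofFinite _
  let A : Matrix {b : GA k G // IsBlk ⊤ b ∧ IsDef p ⊤ b D} ι k := Matrix.of fun b i => b.1 (x i)
  let Λ : Matrix {b : GA k G // IsBlk ⊤ b ∧ IsDef p ⊤ b D} ι k :=
    Matrix.of fun b j => lam b.1 (cls ⊤ (x j))
  have hcZ : ∀ g : G, InZ ⊤ (cls ⊤ g : GA k G) := fun g => cls_inZ (Subgroup.mem_top g)
  have hF : (Matrix.of fun i j : ι => (Θ * cls ⊤ (x j) : GA k G) (x i)) = c₀ • (Aᵀ * Λ) := by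
    ext i j
    rw [Matrix.of_apply, Matrix.smul_apply, Matrix.mul_apply,
      theta_mul_apply hsp hΘ1 hΘi hΘ2 (hcZ _) (hgood i).1, smul_eq_mul]
    congr 1
    have h1 : ∑ b ∈ blks k (⊤ : Subgroup G), lam b (cls ⊤ (x j)) * b (x i) =
        ∑ b ∈ (blks k (⊤ : Subgroup G)).filter (fun b => IsDef p ⊤ b D),
          lam b (cls ⊤ (x j)) * b (x i) := by
      symm
      apply Finset.sum_filter_of_ne
      intro b hb hne
      apply isDef_of_lam_ne_zero hD (mem_blks.1 hb) (hsp b (mem_blks.1 hb)) (hgood j)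
      intro h0
      apply hne
      rw [h0, zero_mul]
    rw [h1, Finset.sum_subtype (p := fun b : GA k G => IsBlk ⊤ b ∧ IsDef p ⊤ b D)
      ((blks k (⊤ : Subgroup G)).filter (fun b => IsDef p ⊤ b D))
      (fun b => by rw [Finset.mem_filter, mem_blks])]
    refine Finset.sum_congr rfl (fun b _ => ?_)
    show _ = b.1 (x i) * lam b.1 (cls ⊤ (x j))
    rw [mul_comm]
  have hdecomp : ∀ b : {b : GA k G // IsBlk ⊤ b ∧ IsDef p ⊤ b D},
      b.1 = ∑ i : ι, b.1 (x i) • (cls ⊤ (x i) : GA k G) := by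
    intro b
    ext g
    rw [GA.sum_apply]
    by_cases hg : b.1 g = 0
    · rw [hg]
      symm
      apply Finset.sum_eq_zero
      intro i _
      rw [GA.smul_apply]
      by_cases hc : (cls ⊤ (x i) : GA k G) g = 0
      · rw [hc, mul_zero]
      · obtain ⟨t, _, rfl⟩ := cls_apply_ne_zero hc
        rw [b.2.1.inZ.2.apply (Subgroup.mem_top t)] at hg
        rw [hg, zero_mul]
    · obtain ⟨i, t, rfl⟩ := hsurj g (good_of_ne_zero hos b.2.1 b.2.2 hg)
      rw [Finset.sum_eq_single i]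
      · rw [GA.smul_apply, cls_apply_of _ _ ⟨t, Subgroup.mem_top t, rfl⟩, mul_one,
          b.2.1.inZ.2.apply (Subgroup.mem_top t)]
      · intro j _ hj
        rw [GA.smul_apply, cls_apply_not, mul_zero]
        rintro ⟨s, _, hs⟩
        apply hj
        symm
        apply hinj i j
        refine ⟨s⁻¹ * t, ?_⟩
        have : x j = s⁻¹ * (t * x i * t⁻¹) * s := by rw [hs]; group
        rw [this]; group
      · intro h; exact absurd (Finset.mem_univ _) h
  have hI : Λ * Aᵀ = 1 := by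
    ext b b'
    rw [Matrix.mul_apply]
    have h1 : ∑ j : ι, Λ b j * Aᵀ j b' = lam b.1 b'.1 := by
      conv_rhs => rw [hdecomp b']
      rw [lam_sum b.2.1 (hsp b.1 b.2.1) _ _ _ (fun i _ => hcZ _)]
      refine Finset.sum_congr rfl (fun j _ => ?_)
      show lam b.1 (cls ⊤ (x j)) * b'.1 (x j) = _
      rw [mul_comm]
    rw [h1, Matrix.one_apply]
    by_cases hbb : b = b'
    · rw [if_pos hbb, ← hbb]
      apply lam_eq b.2.1 b.2.1.inZ
      rw [b.2.1.idem, one_smul, sub_self]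
      exact IsNilpotent.zero
    · rw [if_neg hbb]
      apply lam_eq b.2.1 b'.2.1.inZ
      rcases b'.2.1.eq_or_orth b.2.1 with h | h
      · exact absurd (Subtype.ext h.symm) hbb
      · rw [h, zero_smul, sub_self]
        exact IsNilpotent.zero
  rw [hF, Matrix.rank_smul_of_mem_nonZeroDivisors _ (mem_nonZeroDivisors_of_ne_zero hc₀),
    Nat.card_eq_fintype_card]
  apply le_antisymm
  · exact (Matrix.rank_mul_le_right _ _).trans (Matrix.rank_le_card_height _)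
  · have h1 : (1 : Matrix {b : GA k G // IsBlk ⊤ b ∧ IsDef p ⊤ b D} _ k) = Λ * (Aᵀ * Λ) * Aᵀ := by
      calc (1 : Matrix {b : GA k G // IsBlk ⊤ b ∧ IsDef p ⊤ b D} _ k) = (Λ * Aᵀ) * (Λ * Aᵀ) := by
            rw [hI, one_mul]
        _ = Λ * (Aᵀ * Λ) * Aᵀ := by simp only [Matrix.mul_assoc]
    calc Fintype.card {b : GA k G // IsBlk ⊤ b ∧ IsDef p ⊤ b D}
        = (1 : Matrix {b : GA k G // IsBlk ⊤ b ∧ IsDef p ⊤ b D} _ k).rank := Matrix.rank_one.symm
      _ = (Λ * (Aᵀ * Λ) * Aᵀ).rank := by rw [← h1]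
      _ ≤ (Λ * (Aᵀ * Λ)).rank := Matrix.rank_mul_le_left _ _
      _ ≤ (Aᵀ * Λ).rank := Matrix.rank_mul_le_right _ _

end Rob

end Cfsg.Agent.Lib.Helper29
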