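import Mathlib
import Cfsg.Agent.Lib.Helper29.RobGA
import Cfsg.Agent.Lib.Helper81.BlockProj

set_option autoImplicit false
set_option linter.unusedSectionVars false

namespace Cfsg.Agent.Lib.Helper29

open scoped BigOperators ComplexConjugate
open Cfsg Cfsg.Agent.Lib.Helper80 Cfsg.Agent.Lib.Helper81 Cfsg.Agent.Lib.Helper20

namespace Rob

open GA Kn

variable {p : ℕ} [Fact p.Prime] {M : Ideal AlgInt} (hM : IsPModular p M)
  {G : Type*} [Group G] [Fintype G]

include hM in
/-- a class function vanishing at the nontrivial `p`-regular elements acts on the `p`-regular part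
of a block idempotent as the scalar `θ 1` -/
theorem conv_blockCoeff_regular (B : Set (IrrCharacter G)) (hB : IsPBlock M B) {θ : G → ℂ}
    (hθc : IsClassFunction G θ) (hθ0 : ∀ g, ¬ p ∣ orderOf g → g ≠ 1 → θ g = 0) {y : G}
    (hy : ¬ p ∣ orderOf y) : conv θ (blockCoeff B) y = θ 1 * blockCoeff B y := by
  classical
  have hG : (Nat.card G : ℂ) ≠ 0 := card_ne_zero_complex
  have hBc := blockCoeff_classFunction B
  have h1 : ∀ ω : G, conv θ (blockCoeff B) y =
      ∑ g : G, θ g * blockCoeff B (ω * y * ω⁻¹ * g⁻¹) := by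
    intro ω
    unfold Helper81.conv
    refine Fintype.sum_equiv (MulAut.conj ω).toEquiv _ _ (fun g => ?_)
    have e1 : (MulAut.conj ω).toEquiv g = ω * g * ω⁻¹ := rfl
    rw [e1, hθc]
    congr 1
    have e2 : ω * y * ω⁻¹ * (ω * g * ω⁻¹)⁻¹ = (ω * g) * (g⁻¹ * y) * (ω * g)⁻¹ := by group
    rw [e2, hBc]
  have h2 : (Nat.card G : ℂ) * conv θ (blockCoeff B) y =
      ∑ g : G, θ g * bS B g y := by
    calc (Nat.card G : ℂ) * conv θ (blockCoeff B) y
        = ∑ _ω : G, conv θ (blockCoeff B) y := by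
          rw [Finset.sum_const, Finset.card_univ, nsmul_eq_mul, Nat.card_eq_fintype_card]
      _ = ∑ ω : G, ∑ g : G, θ g * blockCoeff B (ω * y * ω⁻¹ * g⁻¹) :=
          Finset.sum_congr rfl (fun ω _ => h1 ω)
      _ = ∑ g : G, ∑ ω : G, θ g * blockCoeff B (ω * y * ω⁻¹ * g⁻¹) := Finset.sum_comm
      _ = ∑ g : G, θ g * bS B g y := by
          refine Finset.sum_congr rfl (fun g _ => ?_)
          rw [← Finset.mul_sum, sum_blockCoeff_conj]
          rfl
  have h3 : ∑ g : G, θ g * bS B g y = θ 1 * bS B 1 y := by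
    apply Finset.sum_eq_single 1
    · intro g _ hg
      by_cases hs : p ∣ orderOf g
      · rw [(bS_regular_singular hM B hB hy hs).2, mul_zero]
      · rw [hθ0 g hs hg, zero_mul]
    · intro h; exact absurd (Finset.mem_univ _) h
  have h4 : bS B 1 y = (Nat.card G : ℂ) * blockCoeff B y := by
    unfold bS blockCoeff
    rw [mul_inv_cancel_left₀ hG]
  rw [h3, h4] at h2
  apply mul_left_cancel₀ hG
  rw [h2]; ring

theorem resC_natCast' (n : ℕ) : resC hM (n : ℂ) = (n : Kr hM) := by
  induction n with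
  | zero => simpa using resC_zero hM
  | succ m ih =>
    rw [Nat.cast_succ, Nat.cast_succ, resC_add hM (memLocalRing_natCast hM m) (memLocalRing_one hM),
      ih, resC_one]

/-- a natural number valued function as an element of the group algebra -/
def natGA (k : Type*) [Field k] {G : Type*} (f : G → ℕ) : GA k G := fun g => (f g : k)

theorem natGA_apply (k : Type*) [Field k] {G : Type*} (f : G → ℕ) (g : G) :
    natGA k f g = (f g : k) := rfl

/-- the modular version -/
theorem theta_mul_blk {b : GA (Kr hM) G} (hb : IsBlk ⊤ b) (f : G → ℕ)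
    (hfc : ∀ g h : G, f (h * g * h⁻¹) = f g) (hf0 : ∀ g, ¬ p ∣ orderOf g → g ≠ 1 → f g = 0)
    {y : G} (hy : ¬ p ∣ orderOf y) :
    (natGA (Kr hM) f * b) y = (f 1 : Kr hM) * b y := by
  obtain ⟨B, hB, rfl⟩ := exists_block_of_isBlk hM hb
  have hR : RV M (fun g => (f g : ℂ)) := fun g => memLocalRing_natCast hM _
  have h1 := conv_blockCoeff_regular hM B hB (θ := fun g => (f g : ℂ))
    (fun g h => by show ((f (h * g * h⁻¹) : ℕ) : ℂ) = _; rw [hfc])
    (fun g h1 h2 => by show ((f g : ℕ) : ℂ) = 0; rw [hf0 g h1 h2, Nat.cast_zero]) hy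
  have h2 : red hM (fun g => (f g : ℂ)) = natGA (Kr hM) f := by
    ext g
    rw [red_apply, resC_natCast', natGA_apply]
  have h3 := congrArg (resC hM) h1
  rw [resC_mul hM (memLocalRing_natCast hM _) (RV_blockCoeff hM hB y), resC_natCast'] at h3
  rw [← h2]
  unfold blkR
  rw [← red_conv hM hR (RV_blockCoeff hM hB), red_apply, h3, red_apply]

end Rob

end Cfsg.Agent.Lib.Helper29
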