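import Mathlib
import Cfsg.Agent.Lib.Helper29.RobChar
import Cfsg.Agent.Lib.Helper29.RobCount

set_option autoImplicit false
set_option linter.unusedSectionVars false

namespace Cfsg.Agent.Lib.Helper29

open scoped BigOperators
open Cfsg Cfsg.Agent.Lib.Helper80 Cfsg.Agent.Lib.Helper81 Cfsg.Agent.Lib.Helper20

namespace Rob

open GA Kn

section pieces
variable {G : Type*} [Group G] [Fintype G]

theorem mem_carrier_iff (x y : G) :
    y ∈ (ConjClasses.mk x).carrier ↔ ∃ t : G, y = t * x * t⁻¹ := by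
  rw [ConjClasses.mem_carrier_iff_mk_eq, ConjClasses.mk_eq_mk_iff_isConj, isConj_comm,
    _root_.isConj_iff]
  exact ⟨fun ⟨c, hc⟩ => ⟨c, hc.symm⟩, fun ⟨c, hc⟩ => ⟨c, hc.symm⟩⟩

theorem theta_mul_cls (k : Type*) [Field k] (S : Subgroup G) [Fintype (G ⧸ S)]
    [DecidableEq (G ⧸ S)] (xj y : G) :
    ((natGA k (fixN (G ⧸ S)) * (cls ⊤ xj : GA k G) : GA k G) y) =
      ((Fc S (fun z => ∃ t : G, z = t * xj * t⁻¹) y : ℕ) : k) := by
  classical
  rw [GA.mul_apply]
  unfold Fc
  rw [Nat.cast_sum]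
  refine Fintype.sum_equiv ((Equiv.inv G).trans (Equiv.mulRight y)) _ _ (fun g => ?_)
  have e1 : ((Equiv.inv G).trans (Equiv.mulRight y)) g = g⁻¹ * y := rfl
  rw [e1, natGA_apply]
  have e2 : y * (g⁻¹ * y)⁻¹ = g := by group
  rw [e2]
  by_cases h : ∃ t : G, g⁻¹ * y = t * xj * t⁻¹
  · rw [if_pos h]
    obtain ⟨t, ht⟩ := h
    rw [cls_apply_of _ _ ⟨t, Subgroup.mem_top t, ht⟩, mul_one]
  · rw [if_neg h, cls_apply_not, mul_zero, Nat.cast_zero]
    rintro ⟨t, _, ht⟩
    exact h ⟨t, ht⟩

theorem card_pairs (S : Subgroup G) (xi xj : G) :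
    Nat.card {yz : G × G // yz.1 ∈ (ConjClasses.mk xi).carrier ∧
      yz.2 ∈ (ConjClasses.mk xj).carrier ∧ yz.2 * yz.1⁻¹ ∈ S} =
      omegaN S (fun y => ∃ t : G, y = t * xi * t⁻¹) (fun z => ∃ t : G, z = t * xj * t⁻¹) := by
  classical
  rw [Nat.card_eq_fintype_card, Fintype.card_subtype, Finset.card_filter, Fintype.sum_prod_type]
  unfold omegaN
  refine Finset.sum_congr rfl (fun y _ => Finset.sum_congr rfl (fun z _ => ?_))
  by_cases h : (∃ t : G, y = t * xi * t⁻¹) ∧ (∃ t : G, z = t * xj * t⁻¹) ∧ z * y⁻¹ ∈ S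
  · rw [if_pos h]
    apply if_pos
    exact ⟨(mem_carrier_iff _ _).2 h.1, (mem_carrier_iff _ _).2 h.2.1, h.2.2⟩
  · rw [if_neg h]
    apply if_neg
    intro h'
    exact h ⟨(mem_carrier_iff _ _).1 h'.1, (mem_carrier_iff _ _).1 h'.2.1, h'.2.2⟩

theorem card_filter_conj (x : G) [DecidablePred fun y : G => ∃ t : G, y = t * x * t⁻¹] :
    (Finset.univ.filter (fun y : G => ∃ t : G, y = t * x * t⁻¹)).card =
      (Subgroup.centralizer ({x} : Set G)).index := by
  rw [← Cfsg.Agent.Lib.Helper71.ncard_carrier_eq_index, ← Set.ncard_coe_finset]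
  congr 1
  ext y
  simp only [Finset.coe_filter, Finset.mem_univ, true_and, Set.mem_ofPred_eq]
  exact (mem_carrier_iff x y).symm

variable {p : ℕ} [Fact p.Prime]

theorem fixN_eq_zero (S : Subgroup G) (hS : IsPGroup p S) [Fintype (G ⧸ S)] [DecidableEq (G ⧸ S)]
    (g : G) (hg : ¬ p ∣ orderOf g) (h1 : g ≠ 1) : fixN (G ⧸ S) g = 0 := by
  unfold fixN
  rw [Finset.card_eq_zero, Finset.filter_eq_empty_iff]
  intro c _ hc
  obtain ⟨t, rfl⟩ := QuotientGroup.mk_surjective c
  have h2 : g • (t : G ⧸ S) = ((g * t : G) : G ⧸ S) := rfl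
  rw [h2, QuotientGroup.eq] at hc
  obtain ⟨a, ha⟩ := hS ⟨_, hc⟩
  have ha' : ((g * t)⁻¹ * t) ^ p ^ a = 1 := congrArg Subtype.val ha
  have h3 : (g * t)⁻¹ * t = t⁻¹ * g⁻¹ * t⁻¹⁻¹ := by group
  rw [h3, conj_pow, conj_eq_one_iff, inv_pow, inv_eq_one] at ha'
  have h4 : orderOf g ∣ p ^ a := orderOf_dvd_of_pow_eq_one ha'
  obtain ⟨b, _, hb⟩ := (Nat.dvd_prime_pow Fact.out).1 h4
  rcases Nat.eq_zero_or_pos b with rfl | hb0
  · rw [pow_zero] at hb
    exact h1 (orderOf_eq_one_iff.1 hb)
  · exact hg (hb ▸ dvd_pow_self p hb0.ne')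

theorem fixN_one (S : Subgroup G) [Fintype (G ⧸ S)] [DecidableEq (G ⧸ S)] :
    fixN (G ⧸ S) (1 : G) = S.index := by
  unfold fixN
  rw [Finset.filter_true_of_mem (fun c _ => one_smul G c), Finset.card_univ, Subgroup.index,
    Nat.card_eq_fintype_card]

/-- the hypothesis on the classes, in terms of `Good` -/
theorem good_iff {D : Subgroup G} [D.Normal] (hD : IsPGroup p D) (x : G) :
    (¬ p ∣ orderOf x ∧ ∃ Q : Sylow p (Subgroup.centralizer ({x} : Set G)),
      (Q : Subgroup (Subgroup.centralizer ({x} : Set G))).map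
        (Subgroup.centralizer ({x} : Set G)).subtype = D) ↔ Good p D x := by
  constructor
  · rintro ⟨hx, Q, hQ⟩
    have hDC : D ≤ Subgroup.centralizer ({x} : Set G) := by
      rw [← hQ]; exact Subgroup.map_subtype_le _
    have hQD : (Q : Subgroup (Subgroup.centralizer ({x} : Set G))) =
        D.subgroupOf (Subgroup.centralizer ({x} : Set G)) := by
      rw [← hQ]
      exact (Subgroup.comap_map_eq_self_of_injective (Subgroup.subtype_injective _) _).symm
    have hQn : (Q : Subgroup (Subgroup.centralizer ({x} : Set G))).Normal := by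
      rw [hQD]; infer_instance
    refine ⟨hx, ?_, ?_⟩
    · rw [mem_Cn]
      intro u hu
      exact Subgroup.mem_centralizer_singleton_iff.1 (hDC hu)
    · intro R hR hRp
      have hRC : R ≤ Subgroup.centralizer ({x} : Set G) := fun s hs =>
        Subgroup.mem_centralizer_singleton_iff.2 (hR s hs)
      have hRp' : IsPGroup p (R.subgroupOf (Subgroup.centralizer ({x} : Set G))) :=
        hRp.comap_of_injective _ (Subgroup.subtype_injective _)
      obtain ⟨Q', hQ'⟩ := hRp'.exists_le_sylow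
      have _ := Sylow.unique_of_normal Q hQn
      have hQQ : Q' = Q := Subsingleton.elim _ _
      rw [hQQ, hQD] at hQ'
      intro s hs
      have : (⟨s, hRC hs⟩ : Subgroup.centralizer ({x} : Set G)) ∈
          D.subgroupOf (Subgroup.centralizer ({x} : Set G)) := hQ' (Subgroup.mem_subgroupOf.2 hs)
      exact Subgroup.mem_subgroupOf.1 this
  · rintro ⟨hx, hC, hmax⟩
    have hDC : D ≤ Subgroup.centralizer ({x} : Set G) := fun u hu =>
      Subgroup.mem_centralizer_singleton_iff.2 (mem_Cn.1 hC u hu)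
    refine ⟨hx, ⟨D.subgroupOf (Subgroup.centralizer ({x} : Set G)),
      hD.comap_of_injective _ (Subgroup.subtype_injective _), ?_⟩, ?_⟩
    · intro R hR hle
      apply le_antisymm _ hle
      intro s hs
      apply Subgroup.mem_subgroupOf.2
      apply hmax (R.map (Subgroup.centralizer ({x} : Set G)).subtype) _ (hR.map _)
      · exact ⟨s, hs, rfl⟩
      · rintro _ ⟨r, _, rfl⟩
        exact Subgroup.mem_centralizer_singleton_iff.1 r.2
    · exact Subgroup.map_subgroupOf_eq_of_le hDC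

/-- the `p`-part of the size of a good class -/
theorem index_centralizer_good {D : Subgroup G} [D.Normal] (hD : IsPGroup p D) {x : G}
    (hx : Good p D x) :
    ∃ m : ℕ, ¬ p ∣ m ∧ (Subgroup.centralizer ({x} : Set G)).index =
      p ^ ((Nat.card G).factorization p - (Nat.card D).factorization p) * m := by
  have hp : p.Prime := Fact.out
  obtain ⟨_, Q, hQ⟩ := (good_iff hD x).2 hx
  have h1 : Nat.card D = Nat.card Q := by
    rw [← hQ]
    exact Subgroup.card_map_of_injective (Subgroup.subtype_injective _)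
  have h2 := Q.card_eq_multiplicity
  have h3 : (Nat.card D).factorization p =
      (Nat.card (Subgroup.centralizer ({x} : Set G))).factorization p := by
    rw [h1, h2, hp.factorization_pow, Finsupp.single_eq_same]
  have h4 := Subgroup.card_mul_index (Subgroup.centralizer ({x} : Set G))
  have hi0 : (Subgroup.centralizer ({x} : Set G)).index ≠ 0 := Subgroup.index_ne_zero_of_finite
  have hc0 : Nat.card (Subgroup.centralizer ({x} : Set G)) ≠ 0 := Nat.card_pos.ne'
  have h5 : (Nat.card G).factorization p =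
      (Nat.card (Subgroup.centralizer ({x} : Set G))).factorization p +
        ((Subgroup.centralizer ({x} : Set G)).index).factorization p := by
    rw [← h4, Nat.factorization_mul hc0 hi0]; rfl
  refine ⟨(Subgroup.centralizer ({x} : Set G)).index /
    p ^ ((Subgroup.centralizer ({x} : Set G)).index).factorization p,
    Nat.not_dvd_ordCompl hp hi0, ?_⟩
  rw [h5, h3, Nat.add_sub_cancel_left]
  exact (Nat.ordProj_mul_ordCompl_eq_self _ p).symm

end pieces

end Rob

end Cfsg.Agent.Lib.Helper29
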