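import Mathlib
import Cfsg.Agent.Lib.Helper29.RobMain

set_option autoImplicit false
set_option linter.unusedSectionVars false

namespace Cfsg.Agent.Lib.Helper29

open scoped BigOperators
open Cfsg Cfsg.Agent.Lib.Helper80 Cfsg.Agent.Lib.Helper81 Cfsg.Agent.Lib.Helper20

namespace Rob

open GA Kn

variable {G : Type*} [Group G] [Fintype G] {p : ℕ} [Fact p.Prime] {M : Ideal AlgInt}
  (hM : IsPModular p M)

theorem card_blocks_eq (D : Subgroup G) :
    Nat.card {B : Set (IrrCharacter G) // IsPBlock M B ∧ IsDefectGroup p M B D} =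
      Nat.card {b : GA (Kr hM) G // IsBlk ⊤ b ∧ IsDef p ⊤ b D} := by
  refine Nat.card_congr (Equiv.ofBijective (fun B => ⟨blkR hM B.1, isBlk_blkR hM B.2.1,
    (isDefectGroup_iff_isDef hM B.2.1).1 B.2.2⟩) ⟨?_, ?_⟩)
  · intro B B' h
    exact Subtype.ext (blkR_injective hM B.2.1 B'.2.1 (congrArg Subtype.val h))
  · rintro ⟨b, hb, hd⟩
    obtain ⟨B, hB, rfl⟩ := exists_block_of_isBlk hM hb
    exact ⟨⟨B, hB, (isDefectGroup_iff_isDef hM hB).2 hd⟩, rfl⟩

include hM in
/-- **Robinson's theorem** with chosen class representatives. -/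
theorem robinson (D : Subgroup G) [D.Normal] (hD : IsPGroup p D) (S : Sylow p G)
    {ι : Type*} [Fintype ι] [DecidableEq ι]
    (x : ι → G) (hgood : ∀ i, Good p D (x i))
    (hinj : ∀ i j, (∃ t : G, x j = t * x i * t⁻¹) → i = j)
    (hsurj : ∀ g, Good p D g → ∃ i, ∃ t : G, g = t * x i * t⁻¹) :
    Nat.card {B : Set (IrrCharacter G) // IsPBlock M B ∧ IsDefectGroup p M B D} =
      (Matrix.of fun i j : ι => ((omegaN (S : Subgroup G) (fun y => ∃ t : G, y = t * x i * t⁻¹)
        (fun z => ∃ t : G, z = t * x j * t⁻¹) /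
          p ^ ((Nat.card G).factorization p - (Nat.card D).factorization p) : ℕ) : ZMod p)).rank := by
  classical
  have hp : p.Prime := Fact.out
  have _ : Fintype (G ⧸ (S : Subgroup G)) := Fintype.ofFinite _
  set e : ℕ := (Nat.card G).factorization p - (Nat.card D).factorization p with he
  have hSi : ¬ p ∣ (S : Subgroup G).index := S.not_dvd_index
  have hc₀ : (((S : Subgroup G).index : ℕ) : Kr hM) ≠ 0 := by
    rw [Ne, CharP.cast_eq_zero_iff (Kr hM) p]
    exact hSi
  have hrank := rank_eq_card (p := p) (k := Kr hM) (G := G) (osima_Kr hM)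
    (fun b hb => split_sub hM hb) (Θ := natGA (Kr hM) (fixN (G ⧸ (S : Subgroup G)))) hc₀
    (fun a ha => sum_mul_fixN_eq_zero (X := G ⧸ (S : Subgroup G)) ha)
    (fun h => by rw [natGA_apply, natGA_apply, fixN_inv])
    (fun b hb y hy => by
      have := theta_mul_blk hM hb (fixN (G ⧸ (S : Subgroup G))) (fun g h => fixN_conj h g)
        (fun g hg h1 => fixN_eq_zero (S : Subgroup G) S.2 g hg h1) hy
      rw [this, fixN_one])
    hD x hgood hinj hsurj
  rw [card_blocks_eq hM, ← hrank, ← rank_map_eq (ZMod.castHom (dvd_refl p) (Kr hM))]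
  choose m hm1 hm2 using fun i => index_centralizer_good hD (hgood i)
  have hPj : ∀ j : ι, ∀ t y : G, (∃ s : G, t * y * t⁻¹ = s * x j * s⁻¹) ↔
      ∃ s : G, y = s * x j * s⁻¹ := by
    intro j t y
    constructor
    · rintro ⟨s, hs⟩
      refine ⟨t⁻¹ * s, ?_⟩
      have : y = t⁻¹ * (t * y * t⁻¹) * t := by group
      rw [this, hs]; group
    · rintro ⟨s, rfl⟩
      exact ⟨t * s, by group⟩
  have key : ∀ i j : ι, m i * Fc (S : Subgroup G) (fun z => ∃ t : G, z = t * x j * t⁻¹) (x i) =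
      (S : Subgroup G).index * (omegaN (S : Subgroup G) (fun y => ∃ t : G, y = t * x i * t⁻¹)
        (fun z => ∃ t : G, z = t * x j * t⁻¹) / p ^ e) := by
    intro i j
    have h1 := card_mul_Fc (S : Subgroup G) (x i) (fun z => ∃ t : G, z = t * x j * t⁻¹) (hPj j)
    rw [card_filter_conj, ← Nat.card_eq_fintype_card] at h1
    exact arith_div hp h1 (hm2 i) hSi
  have hmi : ∀ i, ((m i : ℕ) : Kr hM) ≠ 0 := by
    intro i
    rw [Ne, CharP.cast_eq_zero_iff (Kr hM) p]
    exact hm1 i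
  have hmat : (Matrix.of fun i j : ι => ((omegaN (S : Subgroup G)
      (fun y => ∃ t : G, y = t * x i * t⁻¹) (fun z => ∃ t : G, z = t * x j * t⁻¹) / p ^ e : ℕ) :
        ZMod p)).map (ZMod.castHom (dvd_refl p) (Kr hM)) =
      Matrix.diagonal (fun i => ((m i : ℕ) : Kr hM) * (((S : Subgroup G).index : ℕ) : Kr hM)⁻¹) *
      (Matrix.of fun i j : ι => (natGA (Kr hM) (fixN (G ⧸ (S : Subgroup G))) * cls ⊤ (x j) :
        GA (Kr hM) G) (x i)) := by
    refine Matrix.ext (fun i j => ?_)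
    refine Eq.trans ?_ (Matrix.diagonal_mul _ _ i j).symm
    rw [Matrix.map_apply, Matrix.of_apply, Matrix.of_apply, map_natCast,
      theta_mul_cls]
    have h2 := congrArg (fun n : ℕ => (n : Kr hM)) (key i j)
    simp only [Nat.cast_mul] at h2
    rw [mul_right_comm, h2]
    field_simp
  rw [hmat, Matrix.rank_mul_eq_right_of_isUnit_det]
  rw [Matrix.det_diagonal]
  apply IsUnit.mk0
  exact Finset.prod_ne_zero_iff.2 (fun i _ => mul_ne_zero (hmi i) (inv_ne_zero hc₀))

end Rob

end Cfsg.Agent.Lib.Helper29
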