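import Mathlib
import Cfsg.Agent.Lib.Helper29.KnorrStable
import Cfsg.Agent.Lib.Helper80.GAPIndexT

set_option autoImplicit false
set_option linter.unusedSectionVars false

namespace Cfsg.Agent.Lib.Helper29

open scoped BigOperators
open Cfsg Cfsg.Agent.Lib.Helper80 Cfsg.Agent.Lib.Helper81 Cfsg.Agent.Lib.Helper20

namespace Kn

open GA

section alg
variable {k : Type*} {G : Type*} [Field k] [Group G] [Fintype G]
variable {p : ℕ} [Fact p.Prime] [CharP k p]

/-- `N ≤ X ≤ L`, `N, L ⊴ G`, `N` contains the `p`-regular elements of `L`; `e` a block of `G` with a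
defect group `D ≤ N`, not killing the `X`-stable block `b` of `N`.  Then every `p`-subgroup of `X`
lies in `N`. -/
theorem pgroup_le_of_stable (hos : Osima p k G) {N L X D S : Subgroup G} [N.Normal] [L.Normal]
    (hNX : N ≤ X) (hXL : X ≤ L)
    (hreg : ∀ x ∈ L, ¬ p ∣ orderOf x → x ∈ N) {e b : GA k G} (he : IsBlk ⊤ e) (hb : IsBlk N b)
    (heb : e * b ≠ 0) (hD : IsDef p ⊤ e D) (hDN : D ≤ N) (hfix : FixBy X b)
    (hsp : ∀ z, InZ N z → ∃ c : k, IsNilpotent (z * b - c • b))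
    (hSX : S ≤ X) (hS : IsPGroup p S) : S ≤ N := by
  have hXN : X ≤ Nn N := by
    intro x _
    show x ∈ Subgroup.normalizer (N : Set G)
    rw [Subgroup.normalizer_eq_top]; exact Subgroup.mem_top x
  have hbX : IsBlk X b :=
    hos.isBlk_of_fix hNX (fun x hx h => hreg x (hXL hx) h) hb hfix
  obtain ⟨DX, hDX⟩ := hbX.exists_isDef (p := p)
  obtain ⟨f, hf, hfb⟩ := hos.exists_cover (hNX.trans hXL) hreg hb
  have hef : e * f ≠ 0 := by
    intro h0
    apply heb
    rw [← hfb, ← mul_assoc, h0, zero_mul]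
  have hDXL : DX ≤ L := hDX.le.trans hXL
  have h1 : br DX f ≠ 0 := by
    intro h0
    apply hDX.br_ne
    rw [← hfb, br_mul hDX.pgroup (hf.inZ.2.mono hDXL) (hfix.mono hDX.le), h0, zero_mul]
  have h2 : br DX e ≠ 0 :=
    br_ne_zero_of_mul_ne_zero hf he.inZ.2 he.idem hDXL hDX.pgroup h1 hef
  obtain ⟨x, _, hx⟩ := hD.zd.le_conj_of_br_ne le_top hDX.pgroup h2
  have hDXN : DX ≤ N := by
    refine hx.trans ?_
    rw [← cS_normal N x]
    exact cS_mono x hDN
  obtain ⟨y, hy, hle⟩ := hDX.le_conj_sup hb hNX hXN hfix hsp hSX hS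
  refine hle.trans (sup_le ?_ le_rfl)
  rw [← cS_normal N y]
  exact cS_mono y hDXN

/-- an element all of whose `p`-regular and `p`-power parts lie in `N` lies in `N` -/
theorem mem_of_parts {N : Subgroup G} {x : G}
    (hreg : ∀ n : ℕ, ¬ p ∣ orderOf (x ^ n) → x ^ n ∈ N)
    (hp : ∀ n : ℕ, IsPGroup p (Subgroup.zpowers (x ^ n)) → x ^ n ∈ N) : x ∈ N := by
  have hp' : p.Prime := Fact.out
  have ho : orderOf x ≠ 0 := (orderOf_pos x).ne'
  obtain ⟨a, m, hm, hom⟩ := Nat.exists_eq_pow_mul_and_not_dvd ho p hp'.ne_one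
  have hm0 : m ≠ 0 := by rintro rfl; exact hm (dvd_zero p)
  have h1 : x ^ (p ^ a) ∈ N := by
    apply hreg
    rw [orderOf_pow_of_dvd (pow_ne_zero _ hp'.ne_zero) (hom ▸ Dvd.intro _ rfl), hom,
      Nat.mul_div_cancel_left _ (pow_pos hp'.pos _)]
    exact hm
  have h2 : x ^ m ∈ N := by
    apply hp
    apply IsPGroup.of_card (n := a)
    rw [Nat.card_zpowers, orderOf_pow_of_dvd hm0 (hom ▸ Dvd.intro_left _ rfl), hom,
      Nat.mul_div_cancel _ (Nat.pos_of_ne_zero hm0)]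
  have hcop : Nat.Coprime (p ^ a) m :=
    Nat.Coprime.pow_left a ((Nat.Prime.coprime_iff_not_dvd hp').2 hm)
  have hb := Nat.gcd_eq_gcd_ab (p ^ a) m
  rw [hcop] at hb
  have : x = (x ^ (p ^ a)) ^ (Nat.gcdA (p ^ a) m) * (x ^ m) ^ (Nat.gcdB (p ^ a) m) := by
    rw [← zpow_natCast x (p ^ a), ← zpow_natCast x m, ← zpow_mul, ← zpow_mul, ← zpow_add, ← hb]
    simp
  rw [this]
  exact N.mul_mem (N.zpow_mem h1 _) (N.zpow_mem h2 _)

end alg

section tr
variable {p : ℕ} [Fact p.Prime] {M : Ideal AlgInt} (hM : IsPModular p M)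
variable {G : Type*} [Group G] [Fintype G]

include hM in
theorem stab_inf_eq (N L : Subgroup G) [N.Normal] [L.Normal] [Fintype N] (hNL : N ≤ L)
    (hLN : ∃ k : ℕ, (N.subgroupOf L).index = p ^ k) (B : Set (IrrCharacter G))
    (hB : IsPBlock M B) (c : Set (IrrCharacter N)) (hc : IsPBlock M c)
    (hcov : ∃ χ ∈ B, ∃ θ ∈ c, classInner (fun n : N => (χ : G → ℂ) n) (θ : N → ℂ) ≠ 0)
    (hD : ∃ D : Subgroup G, IsDefectGroup p M B D ∧ D ≤ N) (T : Subgroup G)
    (hT : ∀ x : G, x ∈ T ↔ StabilizesBlock N c x) : T ⊓ L = N := by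
  obtain ⟨D, hD, hDN⟩ := hD
  have hnorm : ∀ x : G, x ∈ Subgroup.normalizer (N : Set G) := by
    intro x; rw [Subgroup.normalizer_eq_top]; exact Subgroup.mem_top x
  have hreg : ∀ x ∈ L, ¬ p ∣ orderOf x → x ∈ N := by
    intro x hx ho
    have : Fintype L := Fintype.ofFinite L
    have := mem_of_regular_of_index (p := p) (N := N.subgroupOf L) hLN ⟨x, hx⟩
      (by rwa [Subgroup.orderOf_mk])
    exact Subgroup.mem_subgroupOf.1 this
  have hbN := isBlk_bl hM N hc
  have hTfix : ∀ x, x ∈ T ↔ cj x (bl hM N c) = bl hM N c := fun x =>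
    (hT x).trans (stabilizesBlock_iff hM N hc (hnorm x))
  have hNT : N ≤ T := fun x hx => (hTfix x).2 (hbN.inZ.2 x hx)
  have hfix : FixBy (T ⊓ L) (bl hM N c) := fun x hx => (hTfix x).1 hx.1
  apply le_antisymm _ (le_inf hNT hNL)
  intro x hx
  apply mem_of_parts (p := p)
  · intro n hn
    exact hreg _ (L.pow_mem hx.2 n) hn
  · intro n hn
    have := pgroup_le_of_stable (osima_Kr hM) (le_inf hNT hNL) inf_le_right hreg
      (isBlk_blkR hM hB) hbN (mul_ne_zero_of_covers hM inferInstance hB hc hcov)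
      (isDef_of_isDefectGroup hM hB hD) hDN hfix (split_sub hM hbN)
      (S := Subgroup.zpowers (x ^ n))
      (by rw [Subgroup.zpowers_le]; exact (T ⊓ L).pow_mem hx n) hn
    exact this (Subgroup.mem_zpowers _)

end tr

end Kn

end Cfsg.Agent.Lib.Helper29
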