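import Mathlib
import Cfsg.Agent.Lib.Helper29.InvCore2
import Cfsg.Agent.Lib.Helper30.Transitivity
import Cfsg.Agent.Lib.Helper14.PSolvable
import Cfsg.Agent.Lib.Helper58.NormalComplement
import Cfsg.Agent.Lib.Helper27.Signalizer
import Cfsg.Agent.Lib.Helper27.FixedPoint
import Cfsg.Agent.S1282

set_option autoImplicit false

namespace Cfsg.Agent.Lib.Helper29

open Subgroup
open scoped commutatorElement

universe u

variable {G : Type u} [Group G]

theorem isPGroup_zpowers_of_pow {p k : ℕ} {x : G} (h : x ^ p ^ k = 1) :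
    IsPGroup p (zpowers x) := by
  rintro ⟨g, hg⟩
  obtain ⟨n, rfl⟩ := mem_zpowers_iff.1 hg
  refine ⟨k, Subtype.ext ?_⟩
  change (x ^ n) ^ p ^ k = 1
  rw [← zpow_natCast, ← zpow_mul, mul_comm, zpow_mul, zpow_natCast, h, one_zpow]

theorem class_two_comm {P : Subgroup G} (h : Group.IsNilpotent P ∧ Group.nilpotencyClass P ≤ 2) :
    ⁅⁅P, P⁆, P⁆ = ⊥ := by
  obtain ⟨h1, h2⟩ := h
  have h3 : (⊤ : Subgroup P).lowerCentralSeries 2 = ⊥ := by
    rw [eq_bot_iff, ← Subgroup.lowerCentralSeries_nilpotencyClass (G := P)]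
    exact Subgroup.lowerCentralSeries_antitone _ h2
  have h5 := Subgroup.top_subtype_lowerCentralSeries P 2
  rw [h3, Subgroup.map_bot] at h5
  exact h5.symm

section

variable [Finite G] {p : ℕ} [Fact p.Prime]

/-- If the abelian `p`-group `E` contains every `p`-element of `C(E)`, every `p'`-subgroup of
`C(E)` lies in `O_{p'}(C(E))`. -/
theorem le_piCoreOf_centralizer {E : Subgroup G} (hEp : IsPGroup p E)
    (hEc : ∀ a ∈ E, ∀ b ∈ E, a * b = b * a)
    (hEfull : ∀ x ∈ centralizer (E : Set G), IsPGroup p (zpowers x) → x ∈ E)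
    {Z : Subgroup G} (hZ : (Nat.card Z).Coprime p) (hZC : Z ≤ centralizer (E : Set G)) :
    Z ≤ Cfsg.piCoreOf (Cfsg.primesNotDvd p) (centralizer (E : Set G)) := by
  set C := centralizer (E : Set G) with hC
  have hEC : E ≤ C := fun a ha => mem_centralizer_iff.2 (fun b hb => hEc b hb a ha)
  set L := E.subgroupOf C with hL
  have hLp : IsPGroup p L := hEp.comap_subtype
  have hLcen : L ≤ center C := by
    intro l hl
    rw [mem_center_iff]
    intro g
    apply Subtype.ext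
    exact (mem_centralizer_iff.1 g.2 l hl).symm
  obtain ⟨P, hP⟩ := hLp.exists_le_sylow
  have hPL : (P : Subgroup C) = L := by
    apply le_antisymm _ hP
    intro x hx
    rw [hL, mem_subgroupOf]
    apply hEfull x x.2
    obtain ⟨k, hk⟩ := P.2 ⟨x, hx⟩
    apply isPGroup_zpowers_of_pow (k := k)
    simpa using congrArg (fun z : (P : Subgroup C) => ((z : C) : G)) hk
  have hidx : ¬ p ∣ L.index := hPL ▸ P.not_dvd_index
  obtain ⟨n, hn⟩ := IsPGroup.iff_card.1 hLp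
  have hcop : (Nat.card L).Coprime L.index := by
    rw [hn]
    exact Nat.Coprime.pow_left n ((Nat.Prime.coprime_iff_not_dvd Fact.out).2 hidx)
  obtain ⟨K, hKchar, hKcard, -⟩ :=
    Cfsg.Agent.Lib.Helper14.exists_characteristic_complement_of_central L hLcen hcop
  have hKn : K.Normal := inferInstance
  have hKidx : K.index = p ^ n := by
    have h1 := K.card_mul_index
    have h2 := L.card_mul_index
    rw [hKcard] at h1
    rw [hn, ← h1, mul_comm] at h2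
    exact (Nat.eq_of_mul_eq_mul_left (Nat.pos_of_ne_zero L.index_ne_zero_of_finite) h2).symm
  have hKpi : Cfsg.Agent.Lib.Helper30.PiNat (Cfsg.primesNotDvd p) (Nat.card K) := by
    intro r hr hrK
    refine ⟨hr, fun hrp => hidx ?_⟩
    rw [(Nat.prime_dvd_prime_iff_eq hr Fact.out).1 hrp, hKcard] at hrK
    exact hrK
  have hK1 : K ≤ Cfsg.piCore (Cfsg.primesNotDvd p) C := Cfsg.Agent.Lib.Helper30.le_piCore hKn hKpi
  intro z hz
  refine ⟨⟨z, hZC hz⟩, hK1 ?_, rfl⟩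
  apply Cfsg.Agent.Lib.Helper58.mem_of_coprime_order K n hKidx
  have h1 : orderOf (⟨z, hZC hz⟩ : C) = orderOf z := Subgroup.orderOf_mk z (hZC hz)
  rw [h1]
  have h2 : orderOf z ∣ Nat.card Z := by
    have := orderOf_dvd_natCard (⟨z, hz⟩ : Z)
    rwa [Subgroup.orderOf_mk] at this
  exact Nat.Coprime.coprime_dvd_left h2 hZ

/-- The key lemma, in ambient form. -/
theorem le_core_of_invariant
    (h2 : p = 2 → ∀ S : Sylow p G, Group.IsNilpotent (S : Subgroup G) ∧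
      Group.nilpotencyClass (S : Subgroup G) ≤ 2)
    {E : Subgroup G} (hEp : IsPGroup p E) (hEc : ∀ a ∈ E, ∀ b ∈ E, a * b = b * a)
    (hEfull : ∀ x ∈ centralizer (E : Set G), IsPGroup p (zpowers x) → x ∈ E)
    {H : Subgroup G} (hH : IsPConstrained p H) (hEH : E ≤ H) {Q : Subgroup G} (hQH : Q ≤ H)
    (hQ : (Nat.card Q).Coprime p) (hEQ : E ≤ normalizer (Q : Set G)) :
    Q ≤ (pPrimeCore p H).map H.subtype := by
  have hAp : IsPGroup p (E.subgroupOf H) := hEp.comap_subtype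
  have hQ' : (Nat.card (Q.subgroupOf H)).Coprime p := by
    rwa [Nat.card_congr (subgroupOfEquivOfLe hQH).toEquiv]
  have hAQ : E.subgroupOf H ≤ normalizer ((Q.subgroupOf H : Subgroup H) : Set H) := by
    intro x hx
    rw [mem_normalizer_iff]
    intro y
    rw [mem_subgroupOf, mem_subgroupOf]
    exact mem_normalizer_iff.1 (hEQ hx) y
  have hcent : ∀ x ∈ centralizer ((E.subgroupOf H : Subgroup H) : Set H),
      (x : G) ∈ centralizer (E : Set G) := by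
    intro x hx
    rw [mem_centralizer_iff]
    intro e he
    exact congrArg Subtype.val (mem_centralizer_iff.1 hx ⟨e, hEH he⟩ he)
  suffices h : Q.subgroupOf H ≤ pPrimeCore p H by
    have := map_mono (f := H.subtype) h
    rwa [map_subgroupOf_eq_of_le hQH] at this
  by_cases hp : p = 2
  · apply le_pPrimeCore_of_invariant_quad hH _ _ hAp _ _ _ hQ' hAQ
    · intro S
      obtain ⟨P, hP⟩ := (S.2.map H.subtype).exists_le_sylow
      have h3 := class_two_comm (h2 hp P)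
      have h4 : ⁅⁅(S : Subgroup H).map H.subtype, (S : Subgroup H).map H.subtype⁆,
          (S : Subgroup H).map H.subtype⁆ = ⊥ := by
        rw [eq_bot_iff, ← h3]
        exact commutator_mono (commutator_mono hP hP) hP
      rw [← map_commutator, ← map_commutator] at h4
      exact (map_eq_bot_iff_of_injective _ H.subtype_injective).1 h4
    · intro a ha b hb
      exact Subtype.ext (hEc a ha b hb)
    · intro x hx k hk
      apply hEfull x (hcent x hx)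
      apply isPGroup_zpowers_of_pow (k := k)
      simpa using congrArg Subtype.val hk
  · apply le_pPrimeCore_of_invariant_odd hp hH _ hAp _ _ hQ' hAQ
    intro x hx hxp
    apply hEfull x (hcent x hx)
    apply isPGroup_zpowers_of_pow (k := 1)
    rw [pow_one, ← hxp, ← Subgroup.orderOf_coe, pow_orderOf_eq_one]

theorem coprime_of_isPGroup_ne {q : ℕ} [Fact q.Prime] (hqp : q ≠ p) {Q : Subgroup G}
    (hQ : IsPGroup q Q) : (Nat.card Q).Coprime p := by
  obtain ⟨n, hn⟩ := IsPGroup.iff_card.1 hQ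
  rw [hn]
  exact Nat.Coprime.pow_left n ((Nat.coprime_primes Fact.out Fact.out).2 hqp)

/-- One step of the Thompson transitivity argument. -/
theorem thompson_step
    (hloc : ∀ T : Subgroup G, IsPGroup p T → T ≠ ⊥ →
      IsPConstrained p ↥(normalizer (T : Set G)))
    (h2 : p = 2 → ∀ S : Sylow p G, Group.IsNilpotent (S : Subgroup G) ∧
      Group.nilpotencyClass (S : Subgroup G) ≤ 2)
    {E : Subgroup G} (hEp : IsPGroup p E) (hEc : ∀ a ∈ E, ∀ b ∈ E, a * b = b * a)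
    (hEfull : ∀ x ∈ centralizer (E : Set G), IsPGroup p (zpowers x) → x ∈ E)
    {A : Subgroup G} (hAE : A ≤ E) (hA : IsElementaryAbelian p A) (hA3 : p ^ 3 ≤ Nat.card A)
    {q : ℕ} [Fact q.Prime] (hqp : q ≠ p) {Q₁ Q₂ : Subgroup G} (h₁ : IsPGroup q Q₁)
    (h₂ : IsPGroup q Q₂) (hE₁ : E ≤ normalizer (Q₁ : Set G)) (hE₂ : E ≤ normalizer (Q₂ : Set G))
    (hD₁ : Q₁ ⊓ Q₂ ≠ Q₁) (hD₂ : Q₁ ⊓ Q₂ ≠ Q₂) :
    ∃ (S : Subgroup G) (c t₁ t₂ : G), IsPGroup q S ∧ E ≤ normalizer (S : Set G) ∧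
      Q₁ ⊓ Q₂ ≤ S ∧ t₁ ∈ S ∧ t₁ ∈ Q₁ ∧ t₁ ∉ Q₁ ⊓ Q₂ ∧
      c ∈ Cfsg.piCoreOf (Cfsg.primesNotDvd p) (centralizer (E : Set G)) ∧
      Q₁ ⊓ Q₂ ≤ Cfsg.Agent.Lib.Helper30.cj c S ∧ t₂ ∈ Cfsg.Agent.Lib.Helper30.cj c S ∧
      t₂ ∈ Q₂ ∧ t₂ ∉ Q₁ ⊓ Q₂ := by
  obtain ⟨a, haA, ha1, hn₁, hn₂⟩ := Cfsg.Agent.S1282.result p A hA hA3 q hqp Q₁ Q₂ h₁ h₂
    (hAE.trans hE₁) (hAE.trans hE₂) hD₁ hD₂
  set D := Q₁ ⊓ Q₂ with hD
  obtain ⟨t₁, ht₁, ht₁D⟩ := SetLike.not_le_iff_exists.1 hn₁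
  obtain ⟨t₂, ht₂, ht₂D⟩ := SetLike.not_le_iff_exists.1 hn₂
  have haE : a ∈ E := hAE haA
  set H := normalizer ((zpowers a : Subgroup G) : Set G) with hH
  have hHc : IsPConstrained p H := hloc (zpowers a) (hEp.to_le (zpowers_le.2 haE))
    (by rwa [Ne, zpowers_eq_bot])
  have hCH : centralizer ({a} : Set G) ≤ H := by
    rw [← Cfsg.Agent.Lib.Helper27.centralizer_zpowers_eq]
    exact centralizer_le_normalizer _
  have hECa : E ≤ centralizer ({a} : Set G) := by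
    intro e he
    rw [mem_centralizer_iff]
    rintro _ rfl
    exact hEc _ haE e he
  have hEH : E ≤ H := hECa.trans hCH
  have hED : E ≤ normalizer (D : Set G) := Cfsg.Agent.Lib.Helper30.le_normalizer_inf hE₁ hE₂
  have hEND : E ≤ normalizer ((normalizer (D : Set G) : Subgroup G) : Set G) :=
    hED.trans le_normalizer
  have hECan : E ≤ normalizer ((centralizer ({a} : Set G) : Subgroup G) : Set G) :=
    hECa.trans le_normalizer
  set L := (pPrimeCore p H).map H.subtype with hL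
  have hLcop : (Nat.card L).Coprime p := by
    rw [hL, card_map_of_injective H.subtype_injective]
    exact Cfsg.Agent.Lib.Helper28.pPrimeCore_coprime p
  have hHL : H ≤ normalizer (L : Set G) := by
    have hLH : L ≤ H := map_subtype_le _
    rw [← normal_subgroupOf_iff_le_normalizer hLH]
    have : L.subgroupOf H = pPrimeCore p H :=
      comap_map_eq_self_of_injective H.subtype_injective _
    rw [this]; infer_instance
  have hR : ∀ Q : Subgroup G, IsPGroup q Q → E ≤ normalizer (Q : Set G) →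
      normalizer (D : Set G) ⊓ Q ⊓ centralizer ({a} : Set G) ≤ L := by
    intro Q hQ hEQ
    apply le_core_of_invariant h2 hEp hEc hEfull hHc hEH (inf_le_right.trans hCH)
      (coprime_of_isPGroup_ne hqp (hQ.to_le (inf_le_left.trans inf_le_right)))
    exact Cfsg.Agent.Lib.Helper30.le_normalizer_inf
      (Cfsg.Agent.Lib.Helper30.le_normalizer_inf hEND hEQ) hECan
  set M := L ⊓ normalizer (D : Set G) with hM
  set W := D ⊔ M with hW
  have hDq : IsPGroup q D := h₁.to_le inf_le_left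
  have hWcop : (Nat.card W).Coprime p :=
    Nat.Coprime.coprime_dvd_left
      (Cfsg.Agent.Lib.Helper27.card_sup_dvd_mul (inf_le_right : M ≤ normalizer (D : Set G)))
      (Nat.Coprime.mul_left (coprime_of_isPGroup_ne hqp hDq)
        (Nat.Coprime.coprime_dvd_left (card_dvd_of_le inf_le_left) hLcop))
  have hEW : E ≤ normalizer (W : Set G) :=
    Cfsg.Agent.Lib.Helper30.le_normalizer_sup hED
      (Cfsg.Agent.Lib.Helper30.le_normalizer_inf (hEH.trans hHL) hEND)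
  have hcop : (Nat.card E).Coprime (Nat.card W) := by
    obtain ⟨n, hn⟩ := IsPGroup.iff_card.1 hEp
    rw [hn]
    exact Nat.Coprime.pow_left n hWcop.symm
  have hsol : Group.IsSolvable E ∨ Group.IsSolvable W := Or.inl (by
    have := hEp.isNilpotent
    infer_instance)
  have hU : ∀ Q : Subgroup G, IsPGroup q Q → E ≤ normalizer (Q : Set G) → D ≤ Q →
      ∃ P, Cfsg.Agent.Lib.Helper30.IsSylowIn q P W ∧
        D ⊔ (normalizer (D : Set G) ⊓ Q ⊓ centralizer ({a} : Set G)) ≤ P ∧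
        E ≤ normalizer (P : Set G) := by
    intro Q hQ hEQ hDQ
    apply Cfsg.Agent.Lib.Helper30.exists_invariant_isSylowIn_ge hEW hcop hsol q
    · exact sup_le_sup_left (le_inf (hR Q hQ hEQ) (inf_le_left.trans inf_le_left)) D
    · exact hQ.to_le (sup_le hDQ (inf_le_left.trans inf_le_right))
    · exact Cfsg.Agent.Lib.Helper30.le_normalizer_sup hED
        (Cfsg.Agent.Lib.Helper30.le_normalizer_inf
          (Cfsg.Agent.Lib.Helper30.le_normalizer_inf hEND hEQ) hECan)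
  obtain ⟨S₁, hS₁, hUS₁, hES₁⟩ := hU Q₁ h₁ hE₁ inf_le_left
  obtain ⟨S₂, hS₂, hUS₂, hES₂⟩ := hU Q₂ h₂ hE₂ inf_le_right
  obtain ⟨c, hc, hcS⟩ :=
    Cfsg.Agent.Lib.Helper30.invariant_isSylowIn_conj hEW hcop hsol q hS₁ hS₂ hES₁ hES₂
  refine ⟨S₁, c, t₁, t₂, hS₁.isPGroup, hES₁, le_sup_left.trans hUS₁, hUS₁ (le_sup_right (a := D) ht₁),
    (mem_inf.1 (mem_inf.1 ht₁).1).2, ht₁D, ?_, ?_, ?_, (mem_inf.1 (mem_inf.1 ht₂).1).2, ht₂D⟩
  · exact le_piCoreOf_centralizer hEp hEc hEfull (Z := W ⊓ centralizer (E : Set G))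
      (Nat.Coprime.coprime_dvd_left (card_dvd_of_le inf_le_left) hWcop) inf_le_right hc
  · rw [← hcS]; exact le_sup_left.trans hUS₂
  · rw [← hcS]; exact hUS₂ (le_sup_right (a := D) ht₂)

/-- **Thompson transitivity theorem.** -/
theorem thompson_transitivity
    (hloc : ∀ T : Subgroup G, IsPGroup p T → T ≠ ⊥ →
      IsPConstrained p ↥(normalizer (T : Set G)))
    (h2 : p = 2 → ∀ S : Sylow p G, Group.IsNilpotent (S : Subgroup G) ∧
      Group.nilpotencyClass (S : Subgroup G) ≤ 2)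
    {E : Subgroup G} (hEp : IsPGroup p E) (hEc : ∀ a ∈ E, ∀ b ∈ E, a * b = b * a)
    (hEfull : ∀ x ∈ centralizer (E : Set G), IsPGroup p (zpowers x) → x ∈ E)
    {A : Subgroup G} (hAE : A ≤ E) (hA : IsElementaryAbelian p A) (hA3 : p ^ 3 ≤ Nat.card A)
    {q : ℕ} [Fact q.Prime] (hqp : q ≠ p) :
    ∀ (n : ℕ) (Q₁ Q₂ : Subgroup G), Q₁ ∈ Cfsg.maxInvSubgroups ⊤ E {q} →
      Q₂ ∈ Cfsg.maxInvSubgroups ⊤ E {q} → Nat.card G - Nat.card ↥(Q₁ ⊓ Q₂) ≤ n →
      ∃ k ∈ Cfsg.piCoreOf (Cfsg.primesNotDvd p) (centralizer (E : Set G)),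
        Q₂ = Cfsg.Agent.Lib.Helper30.cj k Q₁ := by
  intro n
  induction n with
  | zero =>
    intro Q₁ Q₂ h₁ h₂ hn
    have h1 : Nat.card ↥(Q₁ ⊓ Q₂) ≤ Nat.card G := Subgroup.card_le_card_group _
    have h2 : Q₁ ⊓ Q₂ = ⊤ := Subgroup.eq_top_of_card_eq _ (by omega)
    have h3 : Q₁ = ⊤ := top_le_iff.mp (h2 ▸ inf_le_left)
    have h4 : Q₂ = ⊤ := top_le_iff.mp (h2 ▸ inf_le_right)
    rw [h3, h4]
    exact ⟨1, one_mem _, (Cfsg.Agent.Lib.Helper30.cj_one _).symm⟩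
  | succ n ih =>
    intro Q₁ Q₂ h₁ h₂ hn
    by_cases heq : Q₁ = Q₂
    · rw [heq]; exact ⟨1, one_mem _, (Cfsg.Agent.Lib.Helper30.cj_one _).symm⟩
    have hi₁ := Cfsg.Agent.Lib.Helper30.mem_invSubgroups_top_iff.mp h₁.1
    have hi₂ := Cfsg.Agent.Lib.Helper30.mem_invSubgroups_top_iff.mp h₂.1
    have hD₁ : Q₁ ⊓ Q₂ ≠ Q₁ := by
      intro h
      have : Q₁ ≤ Q₂ := h ▸ inf_le_right
      exact heq (h₁.2 Q₂ h₂.1 this).symm
    have hD₂ : Q₁ ⊓ Q₂ ≠ Q₂ := by
      intro h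
      have : Q₂ ≤ Q₁ := h ▸ inf_le_left
      exact heq (h₂.2 Q₁ h₁.1 this)
    obtain ⟨S, c, t₁, t₂, hS, hES, hDS, ht₁S, ht₁Q, ht₁D, hc, hDcS, ht₂S, ht₂Q, ht₂D⟩ :=
      thompson_step hloc h2 hEp hEc hEfull hAE hA hA3 hqp hi₁.1 hi₂.1 hi₁.2 hi₂.2 hD₁ hD₂
    obtain ⟨T, hT, hST⟩ := Cfsg.Agent.Lib.Helper30.exists_maxInv_ge hS hES
    have hcT := Cfsg.Agent.Lib.Helper30.cj_mem_maxInv
      (Cfsg.Agent.Lib.Helper30.piCoreOf_le _ _ hc) hT
    have key : ∀ (Q Q' : Subgroup G) (t : G), Q₁ ⊓ Q₂ ≤ Q ⊓ Q' → t ∈ Q ⊓ Q' → t ∉ Q₁ ⊓ Q₂ →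
        Nat.card G - Nat.card ↥(Q ⊓ Q') ≤ n := by
      intro Q Q' t hle ht htD
      have hlt : Q₁ ⊓ Q₂ < Q ⊓ Q' := lt_of_le_of_ne hle (fun h => htD (h ▸ ht))
      have h1 := Cfsg.Agent.Lib.Helper27.card_lt_of_lt hlt
      have h2 : Nat.card ↥(Q ⊓ Q') ≤ Nat.card G := Subgroup.card_le_card_group _
      omega
    have k₁ := key Q₁ T t₁ (le_inf inf_le_left (hDS.trans hST))
      (mem_inf.mpr ⟨ht₁Q, hST ht₁S⟩) ht₁D
    have k₂ := key (Cfsg.Agent.Lib.Helper30.cj c T) Q₂ t₂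
      (le_inf (hDcS.trans (Cfsg.Agent.Lib.Helper30.cj_mono c hST)) inf_le_right)
      (mem_inf.mpr ⟨Cfsg.Agent.Lib.Helper30.cj_mono c hST ht₂S, ht₂Q⟩) ht₂D
    obtain ⟨k1, hk1, e1⟩ := ih Q₁ T h₁ hT k₁
    obtain ⟨k2, hk2, e2⟩ := ih _ Q₂ hcT h₂ k₂
    refine ⟨k2 * c * k1, mul_mem (mul_mem hk2 hc) hk1, ?_⟩
    rw [e2, e1, Cfsg.Agent.Lib.Helper30.cj_mul, Cfsg.Agent.Lib.Helper30.cj_mul]

end

end Cfsg.Agent.Lib.Helper29
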